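import Cfsg.Agent.CSixNine.Norm

/-!
The weight normaliser in dimension nine over the field of four elements: basic objects.
-/

set_option autoImplicit false
set_option linter.unusedSectionVars false

namespace Cfsg.Agent.CSixNineTwo

open Matrix Cfsg.Agent.CSixNine

variable {F : Type*} [Field F]

/-- The field of four elements. -/
structure Four (ω : F) : Prop where
  om : Cfsg.Agent.CSixNine.Omega ω
  two : (2 : F) = 0
  cases : ∀ x : F, x = 0 ∨ x = 1 ∨ x = ω ∨ x = ω ^ 2

namespace Four

variable {ω : F} (hF : Four ω)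
include hF

lemma add_self (x : F) : x + x = 0 := by linear_combination x * hF.two

lemma neg (x : F) : -x = x := by linear_combination -x * hF.two

lemma add_sq (x y : F) : (x + y) ^ 2 = x ^ 2 + y ^ 2 := by linear_combination (x * y) * hF.two

lemma pow_four (x : F) : x ^ 4 = x := by
  rcases hF.cases x with rfl | rfl | rfl | rfl
  · simp
  · simp
  · linear_combination x * hF.om.cube
  · linear_combination (ω ^ 5 + ω ^ 2) * hF.om.cube

lemma sq_sq (x : F) : (x ^ 2) ^ 2 = x := by rw [← pow_mul]; exact hF.pow_four x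

lemma cube {x : F} (hx : x ≠ 0) : x ^ 3 = 1 :=
  mul_left_cancel₀ hx (by rw [mul_one]; linear_combination hF.pow_four x)

lemma sq_sum {ι : Type*} (s : Finset ι) (f : ι → F) : (∑ i ∈ s, f i) ^ 2 = ∑ i ∈ s, f i ^ 2 := by
  classical
  induction s using Finset.induction with
  | empty => simp
  | insert a s ha ih => rw [Finset.sum_insert ha, Finset.sum_insert ha, hF.add_sq, ih]

lemma eq_add {a b : F} (h : a + b = 0) : a = b := by linear_combination h - b * hF.two

end Four

/-- The conjugate transpose. -/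
def ct {m n : Type*} (A : Matrix m n F) : Matrix n m F := Matrix.of fun i k => A k i ^ 2

lemma ct_apply {m n : Type*} (A : Matrix m n F) (i : n) (k : m) : ct A i k = A k i ^ 2 := rfl

section Ct

variable {ω : F} {l m n : Type*}

lemma ct_mul (hF : Four ω) [Fintype m] (A : Matrix l m F) (B : Matrix m n F) :
    ct (A * B) = ct B * ct A := by
  ext i k
  rw [ct_apply, Matrix.mul_apply, hF.sq_sum, Matrix.mul_apply]
  exact Finset.sum_congr rfl fun j _ => by rw [ct_apply, ct_apply, mul_pow, mul_comm]

lemma ct_add (hF : Four ω) (A B : Matrix m n F) : ct (A + B) = ct A + ct B := by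
  ext i k
  exact hF.add_sq _ _

lemma ct_ct (hF : Four ω) (A : Matrix m n F) : ct (ct A) = A := by
  ext i k
  exact hF.sq_sq _

lemma ct_zero : ct (0 : Matrix m n F) = 0 := by
  ext i k; simp [ct_apply]

lemma ct_smul (c : F) (A : Matrix m n F) : ct (c • A) = c ^ 2 • ct A := by
  ext i k; simp [ct_apply, mul_pow]

lemma ct_one [DecidableEq m] : ct (1 : Matrix m m F) = 1 := by
  ext i k
  by_cases h : i = k
  · subst h; simp [ct_apply]
  · simp [ct_apply, h, Ne.symm h]

lemma ct_submatrix {l' m' : Type*} (A : Matrix l m F) (e : l' → l) (f : m' → m) :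
    ct (A.submatrix e f) = (ct A).submatrix f e := rfl

lemma ct_kronecker {l' m' : Type*} (A : Matrix l m F) (B : Matrix l' m' F) :
    ct (Matrix.kroneckerMap (· * ·) A B) = Matrix.kroneckerMap (· * ·) (ct A) (ct B) := by
  ext i k; simp [ct_apply, mul_pow]

lemma add_self_mat (hF : Four ω) (A : Matrix m n F) : A + A = 0 := by
  ext i k; exact hF.add_self _

lemma eq_of_add_eq_zero (hF : Four ω) {A B : Matrix m n F} (h : A + B = 0) : A = B := by
  ext i k; exact hF.eq_add (congrFun (congrFun h i) k)

end Ct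

section Unitary

variable {ι : Type*} [Fintype ι] [DecidableEq ι] {ω : F}

/-- Unitary matrices. -/
def Uni (A : Matrix ι ι F) : Prop := ct A * A = 1

lemma Uni.mul (hF : Four ω) {A B : Matrix ι ι F} (hA : Uni A) (hB : Uni B) : Uni (A * B) := by
  show ct (A * B) * (A * B) = 1
  rw [ct_mul hF, Matrix.mul_assoc, ← Matrix.mul_assoc (ct A), hA, Matrix.one_mul, hB]

lemma Uni.one : Uni (1 : Matrix ι ι F) := by
  show ct 1 * 1 = 1
  rw [ct_one, Matrix.one_mul]

lemma Uni.mul_ct {A : Matrix ι ι F} (hA : Uni A) : A * ct A = 1 := mul_eq_one_comm.1 hA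

lemma Uni.ct (hF : Four ω) {A : Matrix ι ι F} (hA : Uni A) : Uni (ct A) := by
  show CSixNineTwo.ct (CSixNineTwo.ct A) * CSixNineTwo.ct A = 1
  rw [ct_ct hF, hA.mul_ct]

/-- The reflection of a set of three coordinates. -/
def refl3 (ω : F) (a b c : ι) : Matrix ι ι F :=
  Matrix.of fun i k =>
    (if i = k then 1 else 0) + if (i = a ∨ i = b ∨ i = c) ∧ (k = a ∨ k = b ∨ k = c) then ω ^ 2 else 0

/-- A transposition matrix. -/
def swp (a b : ι) : Matrix ι ι F := Matrix.of fun i k => if i = Equiv.swap a b k then 1 else 0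

end Unitary

section Nine

variable (ω : F)

/-- An overgroup of the weight normaliser inside the special unitary group, as a set of matrices. -/
structure Ov (M : Matrix I9 I9 F → Prop) : Prop where
  one : M 1
  mul : ∀ A B, M A → M B → M (A * B)
  star : ∀ A, M A → M (ct A)
  uni : ∀ A, M A → Uni A
  det : ∀ A, M A → Matrix.det A = 1
  nrm : ∀ A, Uni A → Matrix.det A = 1 → Nrm9 ω A → M A

variable {ω}

/-- The transvection of an isotropic vector. -/
def tv {ι : Type*} [DecidableEq ι] (u : ι → F) : Matrix ι ι F :=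
  1 + Matrix.of fun i k => u i * u k ^ 2

/-- No transvection. -/
def NoTv (M : Matrix I9 I9 F → Prop) : Prop :=
  ∀ u : I9 → F, u ≠ 0 → ∑ i, u i ^ 3 = 0 → ¬ M (tv u)

/-- The sign change on one factor. -/
def piM : Matrix K3 K3 F := Matrix.of fun i k => if i + k = 0 then 1 else 0

/-- The sign change on the first factor. -/
def tNine : Matrix I9 I9 F := Matrix.kroneckerMap (· * ·) piM (1 : Matrix K3 K3 F)

/-- The sign change. -/
def jNine : Matrix I9 I9 F := Matrix.kroneckerMap (· * ·) piM piM

/-- Representatives of the lines. -/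
def rep : Fin 4 → I9 := ![(1, 0), (0, 1), (1, 1), (1, 2)]

/-- Coordinates adapted to the sign change. -/
def eJf : Unit ⊕ (Fin 4 ⊕ Fin 4) → I9 :=
  Sum.elim (fun _ => 0) (Sum.elim rep fun l => -rep l)

lemma eJf_bij : Function.Bijective eJf := by
  decide +kernel

/-- Coordinates adapted to the sign change. -/
noncomputable def eJ : Unit ⊕ (Fin 4 ⊕ Fin 4) ≃ I9 := Equiv.ofBijective eJf eJf_bij

lemma eJ_apply (x : Unit ⊕ (Fin 4 ⊕ Fin 4)) : eJ x = eJf x := rfl

/-- Coordinates adapted to the sign change on the first factor. -/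
def eTf : K3 ⊕ (K3 ⊕ K3) → I9 :=
  Sum.elim (fun j => (0, j)) (Sum.elim (fun j => (1, j)) fun j => (2, j))

lemma eTf_bij : Function.Bijective eTf := by
  decide +kernel

/-- Coordinates adapted to the sign change on the first factor. -/
noncomputable def eT : K3 ⊕ (K3 ⊕ K3) ≃ I9 := Equiv.ofBijective eTf eTf_bij

lemma eT_apply (x : K3 ⊕ (K3 ⊕ K3)) : eT x = eTf x := rfl

/-- The action on the image of an involution. -/
def al {o ι : Type*} (e : o ⊕ (ι ⊕ ι) → I9) (A : Matrix I9 I9 F) : Matrix ι ι F :=
  Matrix.of fun i k =>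
    A (e (Sum.inr (Sum.inl i))) (e (Sum.inr (Sum.inl k))) +
      A (e (Sum.inr (Sum.inl i))) (e (Sum.inr (Sum.inr k)))

end Nine

end Cfsg.Agent.CSixNineTwo
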