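import Cfsg.Agent.CSixNineTwo.Trap

/-!
The centraliser of an involution in a group without transvections: the block form.
-/

set_option autoImplicit false
set_option linter.unusedSectionVars false

namespace Cfsg.Agent.CSixNineTwo

open Matrix Cfsg.Agent.CSixNine

variable {F : Type*} [Field F] {o ι : Type*} [Fintype o] [DecidableEq o] [Fintype ι] [DecidableEq ι]
  {ω : F}

section CtBlocks

variable {m₁ m₂ n₁ n₂ : Type*}

lemma ct_fromBlocks (A : Matrix m₁ n₁ F) (B : Matrix m₁ n₂ F) (C : Matrix m₂ n₁ F) (D : Matrix m₂ n₂ F) :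
    ct (fromBlocks A B C D) = fromBlocks (ct A) (ct C) (ct B) (ct D) := by
  ext (i | i) (k | k) <;> rfl

lemma ct_fromRows (A : Matrix m₁ n₁ F) (B : Matrix m₂ n₁ F) :
    ct (fromRows A B) = fromCols (ct A) (ct B) := by
  ext i (k | k) <;> rfl

lemma ct_fromCols (A : Matrix m₁ n₁ F) (B : Matrix m₁ n₂ F) :
    ct (fromCols A B) = fromRows (ct A) (ct B) := by
  ext (i | i) k <;> rfl

lemma fromRows_add' (A A' : Matrix m₁ n₁ F) (B B' : Matrix m₂ n₁ F) :
    fromRows A B + fromRows A' B' = fromRows (A + A') (B + B') := by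
  ext (i | i) k <;> rfl

lemma fromCols_add' (A A' : Matrix m₁ n₁ F) (B B' : Matrix m₁ n₂ F) :
    fromCols A B + fromCols A' B' = fromCols (A + A') (B + B') := by
  ext i (k | k) <;> rfl

end CtBlocks

/-- The exchange of the two copies. -/
def sig : o ⊕ (ι ⊕ ι) → o ⊕ (ι ⊕ ι) := Sum.map id Sum.swap

lemma sig_sig (x : o ⊕ (ι ⊕ ι)) : sig (sig x) = x := by rcases x with x | x | x <;> rfl

variable (F o ι) in
/-- The involution. -/
def iv : Matrix (o ⊕ (ι ⊕ ι)) (o ⊕ (ι ⊕ ι)) F := Matrix.of fun x y => if x = sig y then 1 else 0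

lemma iv_mul (X : Matrix (o ⊕ (ι ⊕ ι)) (o ⊕ (ι ⊕ ι)) F) (x y : o ⊕ (ι ⊕ ι)) :
    ((iv F o ι) * X) x y = X (sig x) y := by
  rw [Matrix.mul_apply, Finset.sum_eq_single (sig x)]
  · simp [iv, sig_sig]
  · intro z _ hz
    simp only [iv, Matrix.of_apply]
    rw [if_neg, zero_mul]
    exact fun h => hz (by rw [h, sig_sig])
  · simp

lemma mul_iv (X : Matrix (o ⊕ (ι ⊕ ι)) (o ⊕ (ι ⊕ ι)) F) (x y : o ⊕ (ι ⊕ ι)) :
    (X * (iv F o ι)) x y = X x (sig y) := by
  rw [Matrix.mul_apply, Finset.sum_eq_single (sig y)]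
  · simp [iv]
  · intro z _ hz; simp [iv, hz]
  · simp

/-- The centraliser of the involution. -/
def Cm (X : Matrix (o ⊕ (ι ⊕ ι)) (o ⊕ (ι ⊕ ι)) F) : Prop := X * (iv F o ι) = (iv F o ι) * X

lemma Cm.apply {X : Matrix (o ⊕ (ι ⊕ ι)) (o ⊕ (ι ⊕ ι)) F} (h : Cm X) (x y : o ⊕ (ι ⊕ ι)) :
    X (sig x) (sig y) = X x y := by
  have := congrFun (congrFun h x) (sig y)
  rw [mul_iv, iv_mul, sig_sig] at this
  exact this.symm

lemma Cm.mul {X Y : Matrix (o ⊕ (ι ⊕ ι)) (o ⊕ (ι ⊕ ι)) F} (hX : Cm X) (hY : Cm Y) : Cm (X * Y) := by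
  show X * Y * (iv F o ι) = (iv F o ι) * (X * Y)
  rw [Matrix.mul_assoc, hY, ← Matrix.mul_assoc, hX, Matrix.mul_assoc]

lemma ct_iv : ct (iv F o ι) = (iv F o ι) := by
  ext x y
  simp only [ct_apply, iv, Matrix.of_apply]
  have : (y = sig x) ↔ (x = sig y) := ⟨fun h => by rw [h, sig_sig], fun h => by rw [h, sig_sig]⟩
  by_cases h : x = sig y
  · rw [if_pos h, if_pos (this.2 h), one_pow]
  · rw [if_neg h, if_neg (fun h' => h (this.1 h'))]; simp

lemma Cm.ct (hF : Four ω) {X : Matrix (o ⊕ (ι ⊕ ι)) (o ⊕ (ι ⊕ ι)) F} (h : Cm X) :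
    Cm (CSixNineTwo.ct X) := by
  have := congrArg (CSixNineTwo.ct) h
  rw [ct_mul hF, ct_mul hF, ct_iv] at this
  exact this.symm

/-- The action on the image of the involution minus one. -/
def alB (X : Matrix (o ⊕ (ι ⊕ ι)) (o ⊕ (ι ⊕ ι)) F) : Matrix ι ι F :=
  Matrix.of fun i k => X (.inr (.inl i)) (.inr (.inl k)) + X (.inr (.inl i)) (.inr (.inr k))

variable (F o ι) in
/-- The two copies. -/
def Vm : Matrix (o ⊕ (ι ⊕ ι)) ι F := fromRows 0 (fromRows 1 1)

lemma Cm.mul_Vm (hF : Four ω) {X : Matrix (o ⊕ (ι ⊕ ι)) (o ⊕ (ι ⊕ ι)) F} (h : Cm X) :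
    X * (Vm F o ι) = (Vm F o ι) * alB X := by
  ext x k
  have e : (X * (Vm F o ι)) x k = X x (.inr (.inl k)) + X x (.inr (.inr k)) := by
    simp [Matrix.mul_apply, Fintype.sum_sum_type, Vm, fromRows_apply_inl, fromRows_apply_inr, Matrix.one_apply]
  rw [e]
  rcases x with x | x | x
  · have h' := h.apply (.inl x) (.inr (.inl k))
    simp only [sig, Sum.map_inl, Sum.map_inr, id, Sum.swap_inl] at h'
    rw [h', hF.add_self]
    simp [Matrix.mul_apply, Vm, fromRows_apply_inl]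
  · simp [Matrix.mul_apply, Vm, fromRows_apply_inl, fromRows_apply_inr, Matrix.one_apply, alB]
  · have h1 := h.apply (.inr (.inl x)) (.inr (.inl k))
    have h2 := h.apply (.inr (.inl x)) (.inr (.inr k))
    simp only [sig, Sum.map_inr, Sum.swap_inl, Sum.swap_inr] at h1 h2
    rw [h1, h2, add_comm]
    simp [Matrix.mul_apply, Vm, fromRows_apply_inl, fromRows_apply_inr, Matrix.one_apply, alB]

lemma alB_mul (hF : Four ω) {X Y : Matrix (o ⊕ (ι ⊕ ι)) (o ⊕ (ι ⊕ ι)) F} (hX : Cm X) (hY : Cm Y) :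
    alB (X * Y) = alB X * alB Y := by
  have e : (Vm F o ι) * alB (X * Y) = (Vm F o ι) * (alB X * alB Y) := by
    rw [← (hX.mul hY).mul_Vm hF, Matrix.mul_assoc, hY.mul_Vm hF, ← Matrix.mul_assoc, hX.mul_Vm hF,
      Matrix.mul_assoc]
  ext i k
  have := congrFun (congrFun e (.inr (.inl i))) k
  simpa [Vm, Matrix.fromRows_mul, fromRows_apply_inl, fromRows_apply_inr] using this

lemma alB_ct (hF : Four ω) {X : Matrix (o ⊕ (ι ⊕ ι)) (o ⊕ (ι ⊕ ι)) F} (hX : Cm X) :
    alB (CSixNineTwo.ct X) = CSixNineTwo.ct (alB X) := by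
  ext i k
  have h1 := hX.apply (.inr (.inl k)) (.inr (.inr i))
  simp only [sig, Sum.map_inr, Sum.swap_inl, Sum.swap_inr] at h1
  simp only [alB, ct_apply, Matrix.of_apply, hF.add_sq, h1]

lemma alB_one : alB (1 : Matrix (o ⊕ (ι ⊕ ι)) (o ⊕ (ι ⊕ ι)) F) = 1 := by
  ext i k; simp [alB, Matrix.one_apply]

lemma alB_uni (hF : Four ω) {X : Matrix (o ⊕ (ι ⊕ ι)) (o ⊕ (ι ⊕ ι)) F} (hX : Cm X) (hu : Uni X) :
    Uni (alB X) := by
  show CSixNineTwo.ct (alB X) * alB X = 1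
  rw [← alB_ct hF hX, ← alB_mul hF (hX.ct hF) hX, hu, alB_one]

/-- The central elements. -/
def zq (Z : Matrix ι ι F) : Matrix (o ⊕ (ι ⊕ ι)) (o ⊕ (ι ⊕ ι)) F := 1 + (Vm F o ι) * Z * ct (Vm F o ι)

lemma ct_Vm_mul (hF : Four ω) : ct (Vm F o ι) * (Vm F o ι) = 0 := by
  rw [Vm, ct_fromRows, ct_fromRows, fromCols_mul_fromRows, fromCols_mul_fromRows, ct_one,
    Matrix.one_mul, add_self_mat hF, Matrix.mul_zero, add_zero]

lemma zq_add (hF : Four ω) (Z Z' : Matrix ι ι F) :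
    (zq Z : Matrix (o ⊕ (ι ⊕ ι)) (o ⊕ (ι ⊕ ι)) F) * zq Z' = zq (Z + Z') := by
  have h0 : (Vm F o ι) * Z * ct (Vm F o ι) * ((Vm F o ι) * Z' * ct (Vm F o ι)) =
      (0 : Matrix (o ⊕ (ι ⊕ ι)) (o ⊕ (ι ⊕ ι)) F) := by
    rw [Matrix.mul_assoc ((Vm F o ι) * Z), ← Matrix.mul_assoc (ct (Vm F o ι)), ← Matrix.mul_assoc (ct (Vm F o ι)) (Vm F o ι),
      ct_Vm_mul hF]
    simp
  rw [zq, zq, zq, Matrix.add_mul, Matrix.one_mul, Matrix.mul_add, Matrix.mul_one, h0, add_zero,
    Matrix.mul_add, Matrix.add_mul]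
  abel

lemma zq_conj (hF : Four ω) {X : Matrix (o ⊕ (ι ⊕ ι)) (o ⊕ (ι ⊕ ι)) F} (hX : Cm X) (hu : Uni X)
    (Z : Matrix ι ι F) : X * zq Z * ct X = zq (alB X * Z * ct (alB X)) := by
  have e := congrArg ct (hX.mul_Vm hF)
  rw [ct_mul hF, ct_mul hF] at e
  rw [zq, zq, Matrix.mul_add, Matrix.mul_one, Matrix.add_mul, hu.mul_ct]
  congr 1
  rw [← Matrix.mul_assoc, ← Matrix.mul_assoc, hX.mul_Vm hF, Matrix.mul_assoc _ (ct (Vm F o ι)) (ct X), e]
  simp only [Matrix.mul_assoc]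

/-- The elements centralising the involution and trivial on the image of its commutator. -/
def qb (S : Matrix o o F) (W : Matrix ι o F) (Z : Matrix ι ι F) :
    Matrix (o ⊕ (ι ⊕ ι)) (o ⊕ (ι ⊕ ι)) F :=
  fromBlocks S (fromCols (S * ct W) (S * ct W)) (fromRows W W) (fromBlocks (1 + Z) Z Z (1 + Z))

lemma zq_eq (Z : Matrix ι ι F) : zq Z = qb (1 : Matrix o o F) 0 Z := by
  ext (x | x | x) (y | y | y) <;>
    simp [zq, qb, Vm, Matrix.mul_apply, ct_apply, fromRows_apply_inl, fromRows_apply_inr,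
      Matrix.one_apply, ite_pow]

lemma iv_eq (hF : Four ω) : (iv F o ι) = zq 1 := by
  rw [zq_eq]
  ext (x | x | x) (y | y | y) <;>
    simp [qb, iv, sig, Matrix.one_apply, ct_zero, eq_comm, hF.add_self]
  all_goals split_ifs <;> simp_all [hF.add_self]

lemma qb_mul (hF : Four ω) {S S' : Matrix o o F} (hS' : S' * ct S' = 1) (W W' : Matrix ι o F)
    (Z Z' : Matrix ι ι F) :
    qb S W Z * qb S' W' Z' = qb (S * S') (W * S' + W') (Z + Z' + W * S' * ct W') := by
  have e : S * S' * ct (W * S' + W') = S * ct W + S * S' * ct W' := by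
    rw [ct_add hF, ct_mul hF, Matrix.mul_add, ← Matrix.mul_assoc, Matrix.mul_assoc S S', hS',
      Matrix.mul_one]
  rw [qb, qb, qb, e]
  simp only [fromBlocks_multiply, fromCols_mul_fromRows, fromCols_mul_fromBlocks,
    fromBlocks_mul_fromRows, fromRows_mul_fromCols]
  simp only [fromRows_mul, mul_fromCols, fromBlocks_add,
    fromRows_add', fromCols_add', add_self_mat hF, add_zero, Matrix.mul_assoc]
  congr 1
  · congr 1 <;> simp only [Matrix.mul_add, Matrix.mul_one] <;>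
      linear_combination (norm := module) add_self_mat hF (S * (ct W * Z'))
  · congr 1 <;> simp only [Matrix.add_mul, Matrix.one_mul] <;>
      linear_combination (norm := module) add_self_mat hF (Z * W')
  · congr 1 <;> simp only [Matrix.add_mul, Matrix.mul_add, Matrix.one_mul, Matrix.mul_one] <;>
      linear_combination (norm := module) add_self_mat hF (Z * Z')

lemma qb_one : qb (1 : Matrix o o F) (0 : Matrix ι o F) 0 = 1 := by
  rw [← zq_eq, zq, Matrix.mul_zero, Matrix.zero_mul, add_zero]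

lemma qb_sq (hF : Four ω) (W : Matrix ι o F) (Z : Matrix ι ι F) :
    qb 1 W Z * qb 1 W Z = zq (W * ct W) := by
  rw [qb_mul hF (by rw [ct_one, Matrix.mul_one]), Matrix.mul_one, Matrix.mul_one,
    add_self_mat hF, add_self_mat hF, zero_add, zq_eq]

lemma qb_split (hF : Four ω) (S : Matrix o o F) (W : Matrix ι o F) (Z : Matrix ι ι F) :
    qb S W Z = qb S 0 0 * qb 1 W Z := by
  rw [qb_mul hF (by rw [ct_one, Matrix.mul_one]), Matrix.mul_one, Matrix.mul_one, Matrix.zero_mul]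
  simp

lemma det_qb (hF : Four ω) (S : Matrix o o F) (W : Matrix ι o F) (Z : Matrix ι ι F) :
    Matrix.det (qb S W Z) = Matrix.det S := by
  have h4 : Matrix.det (qb (1 : Matrix o o F) W Z) = 1 := by
    have h : qb (1 : Matrix o o F) W Z * qb 1 W Z * (qb 1 W Z * qb 1 W Z) = 1 := by
      rw [qb_sq hF, zq_add hF, add_self_mat hF, zq_eq, qb_one]
    have := congrArg Matrix.det h
    rw [Matrix.det_mul, Matrix.det_mul, Matrix.det_one] at this
    rw [← this]
    linear_combination -(hF.pow_four (Matrix.det (qb (1 : Matrix o o F) W Z)))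
  rw [qb_split hF, Matrix.det_mul, h4, mul_one, qb]
  simp

/-- An element of the centraliser trivial on the image of the commutator. -/
lemma exists_qb (hF : Four ω) {X : Matrix (o ⊕ (ι ⊕ ι)) (o ⊕ (ι ⊕ ι)) F} (hX : Cm X) (hu : Uni X)
    (hal : alB X = 1) :
    ∃ S W Z, X = qb S W Z ∧ S * ct S = 1 ∧ Z + ct Z = W * ct W := by
  obtain ⟨S, hS⟩ : ∃ S, S = X.toBlocks₁₁ := ⟨_, rfl⟩
  obtain ⟨U, hU⟩ : ∃ U : Matrix o ι F, U = Matrix.of fun x k => X (.inl x) (.inr (.inl k)) := ⟨_, rfl⟩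
  obtain ⟨W, hW⟩ : ∃ W : Matrix ι o F, W = Matrix.of fun i x => X (.inr (.inl i)) (.inl x) := ⟨_, rfl⟩
  obtain ⟨Z, hZ⟩ : ∃ Z : Matrix ι ι F,
      Z = Matrix.of fun i k => X (.inr (.inl i)) (.inr (.inr k)) := ⟨_, rfl⟩
  have hX' : X = fromBlocks S (fromCols U U) (fromRows W W) (fromBlocks (1 + Z) Z Z (1 + Z)) := by
    have hd : ∀ i k, X (.inr (.inl i)) (.inr (.inl k)) = (1 + Z : Matrix ι ι F) i k := fun i k => by
      have h := congrFun (congrFun hal i) k
      rw [Matrix.add_apply, ← h, hZ]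
      simp only [alB, Matrix.of_apply, add_assoc, hF.add_self, add_zero]
    ext (x | x | x) (y | y | y)
    · rw [hS]; rfl
    · rw [hU]; rfl
    · rw [hU]; exact (hX.apply (.inl x) (.inr (.inl y)))
    · rw [hW]; rfl
    · exact hd x y
    · rw [hZ]; rfl
    · rw [hW]; exact (hX.apply (.inr (.inl x)) (.inl y))
    · rw [hZ]; exact (hX.apply (.inr (.inl x)) (.inr (.inr y)))
    · exact (hX.apply (.inr (.inl x)) (.inr (.inl y))).trans (hd x y)
  have h := hu.mul_ct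
  rw [hX', ct_fromBlocks, ct_fromBlocks, ct_fromRows, ct_fromCols, ← fromBlocks_one, ← fromBlocks_one]
    at h
  simp only [fromBlocks_multiply, fromCols_mul_fromRows, fromCols_mul_fromBlocks,
    fromBlocks_mul_fromRows, fromRows_mul_fromCols] at h
  simp only [fromRows_mul, mul_fromCols, fromBlocks_add,
    fromRows_add', fromCols_add', add_self_mat hF, add_zero, fromBlocks_inj] at h
  obtain ⟨h1, h2, -, h4, -, -, -⟩ := h
  have h2' := congrArg (fun T : Matrix o (ι ⊕ ι) F => T.toCols₁) h2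
  simp only [toCols₁_fromCols, ct_add hF, ct_one] at h2'
  have hU' : U = S * ct W := (eq_of_add_eq_zero hF (A := S * ct W) (B := U) (by
    have e0 : (Matrix.toCols₁ (0 : Matrix o (ι ⊕ ι) F)) = 0 := rfl
    rw [e0] at h2'
    rw [← h2']
    simp only [Matrix.mul_add, Matrix.mul_one]
    linear_combination (norm := module) -(add_self_mat hF (U * ct Z)))).symm
  refine ⟨S, W, Z, by rw [hX', qb, hU'], h1, ?_⟩
  refine (eq_of_add_eq_zero hF (B := W * ct W) (A := Z + ct Z) ?_)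
  rw [ct_add hF, ct_one] at h4
  linear_combination (norm := skip) h4
  simp only [Matrix.add_mul, Matrix.mul_add, Matrix.one_mul, Matrix.mul_one]
  linear_combination (norm := module) -(add_self_mat hF (Z * ct Z))

section Ov

variable {M : Matrix I9 I9 F → Prop} (e : o ⊕ (ι ⊕ ι) ≃ I9)

/-- Transport to nine dimensions. -/
def up (X : Matrix (o ⊕ (ι ⊕ ι)) (o ⊕ (ι ⊕ ι)) F) : Matrix I9 I9 F := X.submatrix e.symm e.symm

lemma up_mul (X Y : Matrix (o ⊕ (ι ⊕ ι)) (o ⊕ (ι ⊕ ι)) F) : up e (X * Y) = up e X * up e Y :=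
  (Matrix.submatrix_mul_equiv X Y e.symm e.symm e.symm).symm

lemma up_ct (X : Matrix (o ⊕ (ι ⊕ ι)) (o ⊕ (ι ⊕ ι)) F) : up e (ct X) = ct (up e X) := rfl

lemma up_one : up e (1 : Matrix (o ⊕ (ι ⊕ ι)) (o ⊕ (ι ⊕ ι)) F) = 1 :=
  Matrix.submatrix_one_equiv e.symm

lemma up_add (X Y : Matrix (o ⊕ (ι ⊕ ι)) (o ⊕ (ι ⊕ ι)) F) : up e (X + Y) = up e X + up e Y :=
  rfl

lemma up_down (A : Matrix I9 I9 F) : up e (A.submatrix e e) = A := by
  ext p r; simp [up]

lemma down_uni {A : Matrix I9 I9 F} (hA : Uni A) : Uni (A.submatrix e e) := by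
  show ct (A.submatrix e e) * A.submatrix e e = 1
  rw [ct_submatrix, Matrix.submatrix_mul_equiv, hA, Matrix.submatrix_one_equiv]

lemma down_cm {A : Matrix I9 I9 F} (hA : A * up e (iv F o ι) = up e (iv F o ι) * A) : Cm (A.submatrix e e) := by
  have h := congrArg (fun T => T.submatrix e e) hA
  simp only [← Matrix.submatrix_mul_equiv _ _ _ e _] at h
  have e' : (up e (iv F o ι)).submatrix e e = (iv F o ι) := by
    ext x y; simp [up]
  rw [e'] at h
  exact h

lemma alB_down (A : Matrix I9 I9 F) : alB (A.submatrix e e) = al e A := rfl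

lemma det_up (X : Matrix (o ⊕ (ι ⊕ ι)) (o ⊕ (ι ⊕ ι)) F) : Matrix.det (up e X) = Matrix.det X :=
  Matrix.det_submatrix_equiv_self e.symm X

/-- The central elements of the group are trivial or the involution. -/
theorem zq_cases (hF : Four ω) (hcard : 3 ≤ Fintype.card ι) (hM : Ov ω M) (hns : NoTv M)
    (hiv : M (up e (iv F o ι)))
    (hreal : ∀ g : Matrix ι ι F, Uni g → ∃ h, M h ∧ h * up e (iv F o ι) = up e (iv F o ι) * h ∧ al e h = g)
    {Z : Matrix ι ι F} (hZh : ct Z = Z) (hZ : M (up e (zq Z))) : Z = 0 ∨ Z = 1 := by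
  refine herm_trap hF (S := fun Z => ct Z = Z ∧ M (up e (zq Z))) hcard ?_ (fun _ h => h.1)
    ⟨ct_one, by rw [← iv_eq hF]; exact hiv⟩ ?_ ?_ ⟨hZh, hZ⟩
  · rintro A B ⟨hA, hA'⟩ ⟨hB, hB'⟩
    exact ⟨by rw [ct_add hF, hA, hB], by rw [← zq_add hF, up_mul]; exact hM.mul _ _ hA' hB'⟩
  · rintro g W hg ⟨hW, hW'⟩
    refine ⟨by rw [ct_mul hF, ct_mul hF, ct_ct hF, hW, Matrix.mul_assoc], ?_⟩
    obtain ⟨h, hh, hhc, rfl⟩ := hreal g hg
    rw [← alB_down, ← zq_conj hF (down_cm e hhc) (down_uni e (hM.uni _ hh)), up_mul, up_mul, up_ct,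
      up_down]
    exact hM.mul _ _ (hM.mul _ _ hh hW') (hM.star _ hh)
  · rintro u hu ⟨-, hmem⟩
    obtain ⟨v, hv⟩ : ∃ v : I9 → F, v = fun p => ((Vm F o ι) *ᵥ u) (e.symm p) :=
      ⟨_, rfl⟩
    have hval : ∀ x : o ⊕ (ι ⊕ ι), ((Vm F o ι) *ᵥ u) x =
        Sum.elim (fun _ => 0) (Sum.elim u u) x := by
      rintro (x | x | x) <;> simp [Vm, Matrix.mulVec, dotProduct, fromRows_apply_inl, fromRows_apply_inr, Matrix.one_apply]
    refine hns v (fun h => hu (funext fun i => ?_)) ?_ ?_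
    · have := congrFun h (e (.inr (.inl i)))
      simpa [hv, hval] using this
    · rw [hv, ← e.sum_comp]
      simp only [Equiv.symm_apply_apply, hval, Fintype.sum_sum_type, Sum.elim_inl, Sum.elim_inr]
      simp [hF.add_self]
    · convert hmem using 1
      rw [tv, zq, up_add, up_one, hv]
      congr 1
      ext p r
      simp only [up, Matrix.submatrix_apply, Matrix.of_apply, hval]
      rcases e.symm p with x | x | x <;> rcases e.symm r with y | y | y <;>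
        simp [Vm, Matrix.mul_apply, ct_apply, fromRows_apply_inl, fromRows_apply_inr, Matrix.one_apply, ite_pow, hF.sq_sq]

end Ov

end Cfsg.Agent.CSixNineTwo
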