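import Cfsg.Agent.CSixNineTwo.Cent

/-!
The centralisers of the two involutions in an overgroup without transvections.
-/

set_option autoImplicit false
set_option linter.unusedSectionVars false

namespace Cfsg.Agent.CSixNineTwo

open Matrix Cfsg.Agent.CSixNine
open scoped Kronecker

variable {F : Type*} [Field F] {ω : F}

lemma eT_sig : ∀ x : K3 ⊕ (K3 ⊕ K3), eTf (sig x) = (-(eTf x).1, (eTf x).2) := by decide +kernel

lemma eJ_sig : ∀ x : Unit ⊕ (Fin 4 ⊕ Fin 4), eJf (sig x) = -eJf x := by decide +kernel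

lemma tNine_eq : (tNine : Matrix I9 I9 F) = up eT (iv F K3 K3) := by
  ext p r
  obtain ⟨x, rfl⟩ := eT.surjective p
  obtain ⟨y, rfl⟩ := eT.surjective r
  simp only [up, Matrix.submatrix_apply, Equiv.symm_apply_apply, iv, Matrix.of_apply, tNine,
    Matrix.kroneckerMap_apply, piM, Matrix.one_apply]
  have key : (x = sig y) ↔ ((eT x).1 + (eT y).1 = 0 ∧ (eT x).2 = (eT y).2) := by
    rw [← eT.injective.eq_iff, eT_apply (sig y), eT_sig, ← eT_apply, Prod.ext_iff, eq_neg_iff_add_eq_zero]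
  simp only [key]
  split_ifs <;> simp_all

lemma jNine_eq : (jNine : Matrix I9 I9 F) = up eJ (iv F Unit (Fin 4)) := by
  ext p r
  obtain ⟨x, rfl⟩ := eJ.surjective p
  obtain ⟨y, rfl⟩ := eJ.surjective r
  simp only [up, Matrix.submatrix_apply, Equiv.symm_apply_apply, iv, Matrix.of_apply, jNine,
    Matrix.kroneckerMap_apply, piM]
  have key : (x = sig y) ↔ ((eJ x).1 + (eJ y).1 = 0 ∧ (eJ x).2 + (eJ y).2 = 0) := by
    rw [← eJ.injective.eq_iff, eJ_apply (sig y), eJ_sig, ← eJ_apply, Prod.ext_iff, Prod.fst_neg,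
      Prod.snd_neg, eq_neg_iff_add_eq_zero, eq_neg_iff_add_eq_zero]
  simp only [key]
  split_ifs <;> simp_all

section Kron

lemma kron_uni (hF : Four ω) {a b : Matrix K3 K3 F} (ha : Uni a) (hb : Uni b) : Uni (a ⊗ₖ b) := by
  show ct (a ⊗ₖ b) * (a ⊗ₖ b) = 1
  rw [show ct (a ⊗ₖ b) = ct a ⊗ₖ ct b from ct_kronecker a b, kron_mul, ha, hb, Matrix.one_kronecker_one]

lemma Uni.det_cube (hF : Four ω) {n : Type*} [Fintype n] [DecidableEq n] {a : Matrix n n F}
    (ha : Uni a) : Matrix.det a ^ 3 = 1 := hF.cube fun h => by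
  have := congrArg Matrix.det ha
  rw [Matrix.det_mul, h, mul_zero, Matrix.det_one] at this
  exact zero_ne_one this

lemma piM_uni (hF : Four ω) : Uni (piM : Matrix K3 K3 F) := by
  have h0 : ∀ i k : K3, i + k = 0 ↔ i = -k := fun i k => eq_neg_iff_add_eq_zero.symm
  show ct piM * piM = 1
  ext i k
  rw [Matrix.mul_apply, Finset.sum_eq_single (-i)]
  · simp [ct_apply, piM, h0, Matrix.one_apply, neg_inj]
  · intro j _ hj; simp [ct_apply, piM, h0, hj]
  · simp

lemma Ov.kron_mem {M : Matrix I9 I9 F → Prop} (hF : Four ω) (hM : Ov ω M)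
    (h3 : ∀ g : Matrix K3 K3 F, Uni g → Nrm3 ω g) {a b : Matrix K3 K3 F} (ha : Uni a) (hb : Uni b) :
    M (a ⊗ₖ b) :=
  hM.nrm _ (kron_uni hF ha hb) (by
    rw [Matrix.det_kronecker, ZMod.card, ha.det_cube hF, hb.det_cube hF, one_mul])
    (Nrm9.kron (h3 a ha) (h3 b hb))

end Kron

/-- The three dimensional element inducing a translation. -/
def Ex (ω x : F) : Matrix K3 K3 F :=
  Matrix.of fun i k => if i = 0 then (if k = 0 then 1 else x ^ 2) else
    (if k = 0 then x else if i = k then 1 + ω else ω)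

/-- A scalar on the fixed block. -/
def Dx (c : F) : Matrix K3 K3 F := Matrix.diagonal fun i => if i = 0 then c else 1

lemma down_Ex (x : F) :
    (Ex ω x ⊗ₖ (1 : Matrix K3 K3 F)).submatrix eT eT =
      qb (1 : Matrix K3 K3 F) (x • 1) (ω • 1) := by
  ext (a | a | a) (b | b | b) <;> by_cases h : a = b <;>
    simp [eT_apply, eTf, Ex, qb, Matrix.kroneckerMap_apply, Matrix.one_apply, ct_apply, h,
      Ne.symm, fromRows_apply_inl, fromRows_apply_inr, mul_comm,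
      show (1 : K3) ≠ 0 from by decide, show (2 : K3) ≠ 0 from by decide,
      show (1 : K3) ≠ 2 from by decide, show (2 : K3) ≠ 1 from by decide]
  all_goals simp [Ne.symm h]

lemma down_Dx (c : F) :
    (Dx c ⊗ₖ (1 : Matrix K3 K3 F)).submatrix eT eT =
      qb (c • 1 : Matrix K3 K3 F) 0 0 := by
  ext (a | a | a) (b | b | b) <;> by_cases h : a = b <;>
    simp [eT_apply, eTf, Dx, qb, Matrix.kroneckerMap_apply, Matrix.one_apply, ct_zero, h,
      fromRows_apply_inl, fromRows_apply_inr, Matrix.diagonal,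
      show (1 : K3) ≠ 0 from by decide, show (2 : K3) ≠ 0 from by decide,
      show (1 : K3) ≠ 2 from by decide, show (2 : K3) ≠ 1 from by decide,
      show (0 : K3) ≠ 1 from by decide, show (0 : K3) ≠ 2 from by decide]

lemma Ex_uni (hF : Four ω) {x : F} (hx : x ≠ 0) : Uni (Ex ω x) := by
  have hs : ∀ f : K3 → F, ∑ i, f i = f 0 + f 1 + f 2 := fun f => by
    rw [show (Finset.univ : Finset K3) = {0, 1, 2} from by decide, Finset.sum_insert (by decide),
      Finset.sum_insert (by decide), Finset.sum_singleton, add_assoc]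
  have h3 := hF.cube hx
  have e1 : (1 + ω) ^ 2 = ω := by linear_combination hF.om.eqn + 0 * hF.two
  show ct (Ex ω x) * Ex ω x = 1
  ext i k
  rw [Matrix.mul_apply, hs]
  obtain rfl | rfl | rfl : i = 0 ∨ i = 1 ∨ i = 2 := by revert i; decide
  all_goals obtain rfl | rfl | rfl : k = 0 ∨ k = 1 ∨ k = 2 := by revert k; decide
  all_goals simp [ct_apply, Ex, Matrix.one_apply, show (1 : K3) ≠ 0 from by decide,
    show (2 : K3) ≠ 0 from by decide, show (1 : K3) ≠ 2 from by decide,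
    show (2 : K3) ≠ 1 from by decide, show (0 : K3) ≠ 1 from by decide,
    show (0 : K3) ≠ 2 from by decide, e1]
  all_goals first
    | linear_combination (x ^ 2 * (1 + ω)) * hF.two
    | linear_combination x ^ 3 * hF.two
    | linear_combination (x ^ 2 * x) * hF.two
    | linear_combination x * h3 + x * hF.om.eqn
    | linear_combination (x ^ 3 + 1) * h3 + hF.om.eqn + hF.om.cube
    | linear_combination (x ^ 3 + 1) * h3 + hF.om.cube + (1 + ω ^ 2) * hF.two

lemma Dx_uni (hF : Four ω) {c : F} (hc : c ≠ 0) : Uni (Dx c) :=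
  diagonal_uni hF fun i => by
    split
    · exact hc
    · exact one_ne_zero

variable {M : Matrix I9 I9 F → Prop}

lemma zq_cm {o ι : Type*} [Fintype o] [DecidableEq o] [Fintype ι] [DecidableEq ι] (hF : Four ω)
    (Z : Matrix ι ι F) : Cm (zq Z : Matrix (o ⊕ (ι ⊕ ι)) (o ⊕ (ι ⊕ ι)) F) := by
  show zq Z * iv F o ι = iv F o ι * zq Z
  rw [iv_eq hF, zq_add hF, zq_add hF, add_comm]

lemma qb_eq_iff {o ι : Type*} [Fintype o] [DecidableEq o] [Fintype ι] [DecidableEq ι]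
    {S S' : Matrix o o F} {W W' : Matrix ι o F} {Z Z' : Matrix ι ι F}
    (h : qb S W Z = qb S' W' Z') : S = S' ∧ W = W' ∧ Z = Z' := by
  refine ⟨?_, ?_, ?_⟩ <;> ext i k
  · simpa [qb] using congrFun (congrFun h (.inl i)) (.inl k)
  · simpa [qb, fromRows_apply_inl] using congrFun (congrFun h (.inr (.inl i))) (.inl k)
  · simpa [qb] using congrFun (congrFun h (.inr (.inl i))) (.inr (.inr k))

/-- The centraliser of the sign change on one factor consists of tensors. -/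
theorem centT (hF : Four ω) (hM : Ov ω M) (hns : NoTv M)
    (h3 : ∀ g : Matrix K3 K3 F, Uni g → Nrm3 ω g) {A : Matrix I9 I9 F} (hA : M A)
    (hAt : A * tNine = tNine * A) : ∃ a b, Uni a ∧ Uni b ∧ A = a ⊗ₖ b := by
  have hiv : M (up eT (iv F K3 K3)) := by
    rw [← tNine_eq]; exact hM.kron_mem hF h3 (piM_uni hF) Uni.one
  have hcommR : ∀ g : Matrix K3 K3 F,
      ((1 : Matrix K3 K3 F) ⊗ₖ g) * tNine = tNine * ((1 : Matrix K3 K3 F) ⊗ₖ g) := fun g => by
    rw [tNine, kron_mul, kron_mul, Matrix.one_mul, Matrix.mul_one, Matrix.mul_one, Matrix.one_mul]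
  have halR : ∀ g : Matrix K3 K3 F, al eT ((1 : Matrix K3 K3 F) ⊗ₖ g) = g := fun g => by
    ext i k
    simp [al, eT_apply, eTf, Matrix.kroneckerMap_apply, Matrix.one_apply,
      show (1 : K3) ≠ 2 from by decide]
  have hreal : ∀ g : Matrix K3 K3 F, Uni g → ∃ h, M h ∧
      h * up eT (iv F K3 K3) = up eT (iv F K3 K3) * h ∧ al eT h = g := fun g hg =>
    ⟨_, hM.kron_mem hF h3 Uni.one hg, by rw [← tNine_eq]; exact hcommR g, halR g⟩
  have hzq : ∀ Z, ct Z = Z → M (up eT (zq Z)) → Z = 0 ∨ Z = 1 := fun Z h1 h2 =>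
    zq_cases eT hF (by rw [ZMod.card]) hM hns hiv hreal h1 h2
  have hupE : ∀ x : F, x ≠ 0 → M (up eT (qb (1 : Matrix K3 K3 F) (x • 1) (ω • 1))) := fun x hx => by
    rw [← down_Ex, up_down]; exact hM.kron_mem hF h3 (Ex_uni hF hx) Uni.one
  have hupU : ∀ {X : Matrix (K3 ⊕ (K3 ⊕ K3)) (K3 ⊕ (K3 ⊕ K3)) F}, M (up eT X) → Uni X := by
    intro X hX
    have := down_uni eT (hM.uni _ hX)
    have e : (up eT X).submatrix eT eT = X := by ext p r; simp [up]
    rwa [e] at this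
  have hone : ((1 : Matrix K3 K3 F)) * ct 1 = 1 := by rw [ct_one, Matrix.mul_one]
  -- the linear part is scalar
  have hW : ∀ W Z : Matrix K3 K3 F, M (up eT (qb (1 : Matrix K3 K3 F) W Z)) → ∃ x : F, W = x • 1 := by
    intro W Z hB
    have hD : ∀ x : F, x ≠ 0 → x ^ 2 • W + x • ct W = 0 ∨ x ^ 2 • W + x • ct W = 1 := by
      intro x hx
      obtain ⟨D, hDdef⟩ : ∃ D, D = x ^ 2 • W + x • ct W := ⟨_, rfl⟩
      have hDh : ct D = D := by
        rw [hDdef, ct_add hF, ct_smul, ct_smul, ct_ct hF, hF.sq_sq, add_comm]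
      have hBE := hM.mul _ _ hB (hupE x hx)
      have hEB := hM.mul _ _ (hupE x hx) hB
      rw [← up_mul] at hBE hEB
      have key : qb (1 : Matrix K3 K3 F) W Z * qb 1 (x • 1) (ω • 1) =
          qb 1 (x • 1) (ω • 1) * qb 1 W Z * zq D := by
        rw [zq_eq, qb_mul hF hone, qb_mul hF hone, qb_mul hF hone, hDdef]
        simp only [ct_smul, ct_one, ct_zero, Matrix.mul_one, Matrix.one_mul, Matrix.mul_smul,
          Matrix.smul_mul, Matrix.mul_zero, add_zero]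
        congr 1
        · abel
        · linear_combination (norm := module) -(add_self_mat hF (x • ct W))
      have hmem := hM.mul _ _ (hM.star _ hEB) hBE
      rw [key, ← up_ct, ← up_mul, ← Matrix.mul_assoc, hupU hEB, Matrix.one_mul] at hmem
      rw [← hDdef]
      exact hzq D hDh hmem
    have hsc : ∀ T : Matrix K3 K3 F, T = 0 ∨ T = 1 → ∃ c : F, T = c • 1 := fun T hT =>
      hT.elim (fun h => ⟨0, by rw [h, zero_smul]⟩) (fun h => ⟨1, by rw [h, one_smul]⟩)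
    obtain ⟨a, ha⟩ := hsc _ (hD 1 one_ne_zero)
    obtain ⟨b, hb⟩ := hsc _ (hD ω hF.om.ne_zero)
    refine ⟨ω * a + b, ?_⟩
    rw [add_smul, mul_smul, ← ha, ← hb]
    ext i k
    simp only [Matrix.add_apply, Matrix.smul_apply, smul_eq_mul]
    linear_combination (-(W i k)) * hF.om.eqn + (W i k - ω * ct W i k) * hF.two
  obtain ⟨g, hg⟩ : ∃ g, g = al eT A := ⟨_, rfl⟩
  have hAc := down_cm eT (tNine_eq (F := F) ▸ hAt)
  have hgu : Uni g := by rw [hg, ← alB_down]; exact alB_uni hF hAc (down_uni eT (hM.uni _ hA))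
  obtain ⟨R, hR⟩ : ∃ R, R = (1 : Matrix K3 K3 F) ⊗ₖ ct g := ⟨_, rfl⟩
  have hRM : M R := hR ▸ hM.kron_mem hF h3 Uni.one (hgu.ct hF)
  obtain ⟨X, hX⟩ : ∃ X, X = (R * A).submatrix eT eT := ⟨_, rfl⟩
  have hXM : M (up eT X) := by rw [hX, up_down]; exact hM.mul _ _ hRM hA
  have hRc := down_cm eT (A := R) (by rw [← tNine_eq, hR]; exact hcommR _)
  have hXe : X = R.submatrix eT eT * A.submatrix eT eT := by
    rw [hX, Matrix.submatrix_mul_equiv]
  have hXc : Cm X := hXe ▸ hRc.mul hAc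
  have hXal : alB X = 1 := by
    rw [hXe, alB_mul hF hRc hAc, alB_down, alB_down, hR, halR, ← hg, hgu]
  obtain ⟨S, W, Z, hXq, hS, -⟩ := exists_qb hF hXc (hupU hXM) hXal
  -- the fixed block is scalar
  obtain ⟨S₂, W₂, Z₂, hXq₂, hS₂, -⟩ := exists_qb hF (hXc.ct hF) ((hupU hXM).ct hF)
    (by rw [alB_ct hF hXc, hXal, ct_one])
  have hinv : qb (S * S₂) (W * S₂ + W₂) (Z + Z₂ + W * S₂ * ct W₂) = qb 1 0 0 := by
    rw [← qb_mul hF hS₂, ← hXq, ← hXq₂, (hupU hXM).mul_ct, qb_one]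
  obtain ⟨hSS, hWW, -⟩ := qb_eq_iff hinv
  have hconj : M (up eT (X * qb (1 : Matrix K3 K3 F) ((1 : F) • 1) (ω • 1) * ct X)) := by
    rw [up_mul, up_mul, up_ct]
    exact hM.mul _ _ (hM.mul _ _ hXM (hupE 1 one_ne_zero)) (hM.star _ hXM)
  rw [hXq₂, hXq, one_smul, qb_mul hF hone, qb_mul hF hS₂, Matrix.mul_one, Matrix.mul_one, hSS,
    Matrix.add_mul, Matrix.one_mul, add_comm (W * S₂), add_assoc, hWW, add_zero] at hconj
  obtain ⟨c, hc⟩ := hW _ _ hconj
  have hc0 : c ≠ 0 := fun h => by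
    have := congrFun (congrFun hSS 0) 0
    rw [hc, h, zero_smul, Matrix.mul_zero] at this
    simp at this
  have hDM : M (up eT (qb (c • 1 : Matrix K3 K3 F) 0 0)) := by
    rw [← down_Dx, up_down]; exact hM.kron_mem hF h3 (Dx_uni hF hc0) Uni.one
  obtain ⟨W', Z', hY⟩ : ∃ W' Z', qb (c • 1 : Matrix K3 K3 F) 0 0 * X = qb 1 W' Z' := by
    refine ⟨_, _, (by rw [hXq, qb_mul hF hS, ← hc, mul_eq_one_comm.1 hSS])⟩
  have hYM : M (up eT (qb (1 : Matrix K3 K3 F) W' Z')) := by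
    rw [← hY, up_mul]; exact hM.mul _ _ hDM hXM
  obtain ⟨x, hx⟩ := hW _ _ hYM
  -- remove the translation
  obtain ⟨P, hPu, W'', Z'', hP⟩ : ∃ P : Matrix K3 K3 F, Uni P ∧ ∃ W'' Z'',
      (P ⊗ₖ (1 : Matrix K3 K3 F)).submatrix eT eT * qb (1 : Matrix K3 K3 F) W' Z' = qb 1 W'' Z'' ∧
        W'' = 0 := by
    rcases eq_or_ne x 0 with hx0 | hx0
    · exact ⟨1, Uni.one, W', Z', by rw [Matrix.one_kronecker_one, Matrix.submatrix_one_equiv,
        Matrix.one_mul], by rw [hx, hx0, zero_smul]⟩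
    · exact ⟨Ex ω x, Ex_uni hF hx0, _, _, by rw [down_Ex, qb_mul hF hone, Matrix.mul_one],
        by rw [Matrix.mul_one, hx, add_self_mat hF]⟩
  obtain ⟨hP, hW''⟩ := hP
  subst hW''
  have hQM : M (up eT (qb (1 : Matrix K3 K3 F) 0 Z'')) := by
    rw [← hP, up_mul, up_down]; exact hM.mul _ _ (hM.kron_mem hF h3 hPu Uni.one) hYM
  have hZh : ct Z'' = Z'' := by
    have hqc : Cm (qb (1 : Matrix K3 K3 F) (0 : Matrix K3 K3 F) Z'') := by
      rw [← zq_eq]
      exact zq_cm hF _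
    obtain ⟨S₃, W₃, Z₃, e, -, hZ₃⟩ := exists_qb hF hqc (hupU hQM) (by ext i k; simp [alB, qb, add_assoc, hF.add_self])
    obtain ⟨-, rfl, rfl⟩ := qb_eq_iff e
    rw [ct_zero, Matrix.mul_zero] at hZ₃
    exact (eq_of_add_eq_zero hF hZ₃).symm
  obtain ⟨T, hTu, hT⟩ : ∃ T : Matrix K3 K3 F, Uni T ∧
      up eT (qb (1 : Matrix K3 K3 F) 0 Z'') = T ⊗ₖ (1 : Matrix K3 K3 F) := by
    rcases hzq Z'' hZh (by rwa [zq_eq]) with rfl | rfl
    · exact ⟨1, Uni.one, by rw [qb_one, up_one, Matrix.one_kronecker_one]⟩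
    · exact ⟨piM, piM_uni hF, by rw [← zq_eq, ← iv_eq hF, ← tNine_eq]; rfl⟩
  have e : (P ⊗ₖ (1 : Matrix K3 K3 F)) * ((Dx c ⊗ₖ (1 : Matrix K3 K3 F)) * (R * A)) =
      T ⊗ₖ (1 : Matrix K3 K3 F) := by
    rw [← hT, ← hP, ← hY, ← down_Dx, hX, up_mul, up_mul, up_down, up_down, up_down]
  obtain ⟨Q, hQ⟩ : ∃ Q : Matrix K3 K3 F, Q = ct (Dx c) * (ct P * T) := ⟨_, rfl⟩
  refine ⟨Q, g, hQ ▸ ((Dx_uni hF hc0).ct hF).mul hF ((hPu.ct hF).mul hF hTu), hgu, ?_⟩
  calc A = ((1 : Matrix K3 K3 F) ⊗ₖ g) * (R * A) := by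
        rw [← Matrix.mul_assoc, hR, kron_mul, Matrix.one_mul, hgu.mul_ct, Matrix.one_kronecker_one,
          Matrix.one_mul]
    _ = ((1 : Matrix K3 K3 F) ⊗ₖ g) * (((ct (Dx c) * ct P) ⊗ₖ (1 : Matrix K3 K3 F)) *
        ((P ⊗ₖ (1 : Matrix K3 K3 F)) * ((Dx c ⊗ₖ (1 : Matrix K3 K3 F)) * (R * A)))) := by
        rw [← Matrix.mul_assoc ((ct (Dx c) * ct P) ⊗ₖ _), kron_mul, Matrix.mul_one,
          ← Matrix.mul_assoc _ (Dx c ⊗ₖ _), kron_mul, Matrix.mul_one, Matrix.mul_assoc (ct (Dx c)),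
          hPu, Matrix.mul_one, Dx_uni hF hc0, Matrix.one_kronecker_one, Matrix.one_mul]
    _ = Q ⊗ₖ g := by
        rw [e, kron_mul, kron_mul, Matrix.one_mul, Matrix.mul_one, Matrix.mul_one, hQ, Matrix.mul_assoc]

/-- The centraliser of the sign change normalises the weights. -/
theorem centJ (hF : Four ω) (hM : Ov ω M) (hns : NoTv M)
    (h3 : ∀ g : Matrix K3 K3 F, Uni g → Nrm3 ω g)
    (hreal : ∀ g : Matrix (Fin 4) (Fin 4) F, Uni g → ∃ h : Matrix I9 I9 F, Uni h ∧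
      Matrix.det h = 1 ∧ Nrm9 ω h ∧ h * jNine = jNine * h ∧ al eJ h = g)
    {A : Matrix I9 I9 F} (hA : M A) (hAj : A * jNine = jNine * A) : Nrm9 ω A := by
  have hpi := piM_uni hF
  have hiv : M (up eJ (iv F Unit (Fin 4))) := by
    rw [← jNine_eq]; exact hM.kron_mem hF h3 hpi hpi
  have hzq : ∀ Z : Matrix (Fin 4) (Fin 4) F, ct Z = Z → M (up eJ (zq Z)) → Z = 0 ∨ Z = 1 := by
    refine fun Z h1 h2 => zq_cases eJ hF (by simp) hM hns hiv (fun g hg => ?_) h1 h2
    obtain ⟨h, hu, hd, hn, hc, ha⟩ := hreal g hg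
    exact ⟨h, hM.nrm h hu hd hn, by rw [← jNine_eq]; exact hc, ha⟩
  obtain ⟨g, hg⟩ : ∃ g, g = al eJ A := ⟨_, rfl⟩
  have hAc := down_cm eJ (jNine_eq (F := F) ▸ hAj)
  have hgu : Uni g := by rw [hg, ← alB_down]; exact alB_uni hF hAc (down_uni eJ (hM.uni _ hA))
  obtain ⟨h, hu, hd, hn, hc, ha⟩ := hreal g hgu
  have hhM := hM.nrm h hu hd hn
  have hhc := down_cm eJ (jNine_eq (F := F) ▸ hc)
  obtain ⟨B, hB⟩ : ∃ B, B = ct h * A := ⟨_, rfl⟩
  have hBM : M B := hB ▸ hM.mul _ _ (hM.star _ hhM) hA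
  obtain ⟨X, hX⟩ : ∃ X, X = B.submatrix eJ eJ := ⟨_, rfl⟩
  have hXe : X = ct (h.submatrix eJ eJ) * A.submatrix eJ eJ := by
    rw [hX, hB, ct_submatrix, Matrix.submatrix_mul_equiv]
  have hXc : Cm X := hXe ▸ (hhc.ct hF).mul hAc
  have hXu : Uni X := hX ▸ down_uni eJ (hM.uni _ hBM)
  have hXal : alB X = 1 := by
    rw [hXe, alB_mul hF (hhc.ct hF) hAc, alB_ct hF hhc, alB_down, alB_down, ha, ← hg, hgu]
  obtain ⟨S, W, Z, hXq, hS, hZ⟩ := exists_qb hF hXc hXu hXal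
  have hXM : M (up eJ X) := by rw [hX, up_down]; exact hBM
  have hS1 : S = 1 := by
    have e : Matrix.det X = 1 := by rw [hX, Matrix.det_submatrix_equiv_self]; exact hM.det _ hBM
    rw [hXq, det_qb hF, Matrix.det_unique] at e
    ext i k
    simpa [Subsingleton.elim i default, Subsingleton.elim k default] using e
  subst hS1
  have hWW : W * ct W = 0 := by
    have hh : ct (W * ct W) = W * ct W := by rw [ct_mul hF, ct_ct hF]
    have hm : M (up eJ (zq (W * ct W))) := by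
      rw [← qb_sq hF W Z, ← hXq, up_mul]; exact hM.mul _ _ hXM hXM
    refine (hzq _ hh hm).resolve_right fun h1 => ?_
    have e0 := congrFun (congrFun h1 0) 0
    have e1 := congrFun (congrFun h1 1) 1
    have e01 := congrFun (congrFun h1 0) 1
    simp [Matrix.mul_apply, ct_apply] at e0 e1 e01
    rcases e01 with h | h <;> simp [h] at e0 e1
  have hW0 : W = 0 := by
    ext i u
    have := congrFun (congrFun hWW i) i
    simp [Matrix.mul_apply, ct_apply] at this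
    rw [show u = default from Subsingleton.elim _ _]
    exact pow_eq_zero_iff (n := 3) (by norm_num) |>.1 (by rw [pow_succ']; simpa using this)
  subst hW0
  rw [Matrix.zero_mul] at hZ
  have hZ' := (eq_of_add_eq_zero hF hZ).symm
  have hB' : Nrm9 ω B := by
    rcases hzq Z hZ' (by rw [zq_eq, ← hXq]; exact hXM) with rfl | rfl
    · have : B = 1 := by rw [← up_down eJ B, ← hX, hXq, qb_one, up_one]
      rw [this]; exact Nrm9.one
    · have : B = jNine := by rw [← up_down eJ B, ← hX, hXq, ← zq_eq, ← iv_eq hF, ← jNine_eq]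
      rw [this]; exact Nrm9.kron (h3 _ hpi) (h3 _ hpi)
  have : A = h * B := by rw [hB, ← Matrix.mul_assoc, hu.mul_ct, Matrix.one_mul]
  rw [this]
  exact hn.mul hB'

end Cfsg.Agent.CSixNineTwo
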