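import Cfsg.Agent.CSixNineTwo.Basic
import Cfsg.Agent.Classical.UGen

/-!
An overgroup of the weight normaliser over the field of four elements which contains one transvection
is the whole special unitary group.
-/

set_option autoImplicit false
set_option linter.unusedSectionVars false

namespace Cfsg.Agent.CSixNineTwo

open Matrix Cfsg.Agent.CSixNine
open scoped Matrix Kronecker

universe u

variable {F : Type u} [Field F] {ω : F}

section General

variable {ι : Type*} [Fintype ι] [DecidableEq ι]

lemma tv_mulVec (u v : ι → F) : tv u *ᵥ v = v + (∑ k, u k ^ 2 * v k) • u := by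
  rw [tv, Matrix.add_mulVec, Matrix.one_mulVec]
  congr 1
  ext i
  simp only [Matrix.mulVec, dotProduct, Matrix.of_apply, Pi.smul_apply, smul_eq_mul, Finset.sum_mul]
  exact Finset.sum_congr rfl fun k _ => by ring

lemma tv_conj (hF : Four ω) {A : Matrix ι ι F} (hA : Uni A) (u : ι → F) :
    A * tv u * ct A = tv (A *ᵥ u) := by
  rw [tv, Matrix.mul_add, Matrix.add_mul, Matrix.mul_one, hA.mul_ct, tv]
  congr 1
  ext i k
  simp only [Matrix.mul_apply, Matrix.of_apply, ct_apply, Matrix.mulVec, dotProduct, hF.sq_sum,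
    Finset.mul_sum, Finset.sum_mul]
  exact Finset.sum_congr rfl fun b _ => Finset.sum_congr rfl fun a _ => by ring

lemma tv_smul (hF : Four ω) {c : F} (hc : c ≠ 0) (u : ι → F) : tv (c • u) = tv u := by
  rw [tv, tv]
  congr 1
  ext i k
  simp only [Matrix.of_apply, Pi.smul_apply, smul_eq_mul]
  linear_combination (u i * u k ^ 2) * hF.cube hc

/-- A permutation matrix. -/
def perM (σ : ι ≃ ι) : Matrix ι ι F := Matrix.of fun i k => if i = σ k then 1 else 0

lemma perM_mulVec (σ : ι ≃ ι) (v : ι → F) : perM σ *ᵥ v = v ∘ σ.symm := by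
  ext i
  simp only [Matrix.mulVec, dotProduct, perM, Matrix.of_apply, Function.comp_apply]
  rw [Finset.sum_eq_single (σ.symm i)]
  · simp
  · intro b _ hb
    rw [if_neg (fun h => hb (by rw [h, Equiv.symm_apply_apply])), zero_mul]
  · simp

lemma perM_uni (σ : ι ≃ ι) : Uni (perM σ : Matrix ι ι F) := by
  show ct (perM σ) * perM σ = 1
  ext i k
  rw [Matrix.mul_apply, Finset.sum_eq_single (σ k)]
  · by_cases h : i = k
    · subst h; simp [ct_apply, perM, Matrix.one_apply_eq]
    · simp [ct_apply, perM, Ne.symm h, h, Matrix.one_apply_ne h]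
  · intro b _ hb; simp [perM, hb]
  · simp

lemma perM_det (hF : Four ω) (σ : ι ≃ ι) : Matrix.det (perM σ : Matrix ι ι F) = 1 := by
  have e : (perM σ : Matrix ι ι F) = Equiv.Perm.permMatrix F σ.symm := by
    ext i k
    simp [perM, Equiv.Perm.permMatrix, PEquiv.toMatrix, Equiv.symm_apply_eq]
  rw [e, Matrix.det_permutation]
  rcases Int.units_eq_one_or (Equiv.Perm.sign (σ.symm : Equiv.Perm ι)) with h | h <;> rw [h] <;>
    simp [hF.neg]

end General

section Nine

/-- The centres of transvections. -/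
def Cen (M : Matrix I9 I9 F → Prop) (u : I9 → F) : Prop := M (tv u)

/-- The support. -/
noncomputable def supp (u : I9 → F) : Finset I9 :=
  haveI := Classical.decEq F
  Finset.univ.filter fun p => u p ≠ 0

lemma mem_supp {u : I9 → F} {p : I9} : p ∈ supp u ↔ u p ≠ 0 := by
  classical
  simp [supp]

lemma sum_cube (hF : Four ω) (u : I9 → F) : ∑ i, u i ^ 3 = ((supp u).card : F) := by
  classical
  rw [show ∑ i, u i ^ 3 = ∑ i, if i ∈ supp u then (1 : F) else 0 from
    Finset.sum_congr rfl fun i _ => ?_]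
  · simp
  · by_cases h : u i = 0
    · simp [h, mem_supp]
    · simp [h, mem_supp, hF.cube h]

lemma cast_mod (hF : Four ω) (n : ℕ) : (n : F) = ((n % 2 : ℕ) : F) := by
  conv_lhs => rw [← Nat.mod_add_div n 2, Nat.cast_add, Nat.cast_mul, Nat.cast_two, hF.two, zero_mul,
    add_zero]

lemma even_supp (hF : Four ω) {u : I9 → F} (h : ∑ i, u i ^ 3 = 0) : (supp u).card % 2 = 0 := by
  rw [sum_cube hF, cast_mod hF] at h
  rcases Nat.mod_two_eq_zero_or_one (supp u).card with e | e
  · exact e
  · rw [e, Nat.cast_one] at h; exact absurd h one_ne_zero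

/-- The coefficients of the diagonal elements used to shorten a centre. -/
def qc : Fin 5 → K3 × K3 × K3 × K3 :=
  ![(0, 0, 0, 1), (0, 0, 1, 0), (0, 1, 1, 0), (1, 0, 0, 1), (0, 0, 1, 1)]

/-- A quadratic function on the coordinates. -/
def qfn (c : K3 × K3 × K3 × K3) (p : I9) : K3 :=
  c.1 * p.1 * p.1 + c.2.1 * p.2 * p.2 + c.2.2.1 * p.1 + c.2.2.2 * p.2

lemma qfn_sum : ∀ i : Fin 5, ∑ p : I9, qfn (qc i) p = 0 := by decide +kernel

lemma shorten : ∀ S : Finset I9, S.card % 2 = 0 → 4 ≤ S.card → ∃ i : Fin 5, ∃ t : K3,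
    2 ≤ (S.filter fun p => qfn (qc i) p = t).card ∧
    (S.filter fun p => qfn (qc i) p = t).card % 2 = 0 ∧
    (S.filter fun p => qfn (qc i) p = t + 1).card % 2 = 1 ∧
    (S.filter fun p => qfn (qc i) p = t + 2).card % 2 = 1 := by
  decide +kernel

/-- The diagonal element of a quadratic function. -/
def qM (ω : F) (c : K3 × K3 × K3 × K3) : Matrix I9 I9 F := Matrix.diagonal fun p => wp ω (qfn c p)

lemma wp_sq (hω : CSixNine.Omega ω) (a : K3) : wp ω a ^ 2 = wp ω (-a) := by
  rw [pow_two, ← hω.wp_add]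
  congr 1
  revert a; decide

lemma qM_uni (hF : Four ω) (c : K3 × K3 × K3 × K3) : Uni (qM ω c) := by
  show ct (qM ω c) * qM ω c = 1
  have e : ct (qM ω c) = Matrix.diagonal fun p => wp ω (qfn c p) ^ 2 := by
    ext i k
    by_cases h : i = k
    · subst h; simp [ct_apply, qM]
    · simp [ct_apply, qM, h, Ne.symm h]
  rw [e, qM, Matrix.diagonal_mul_diagonal, ← Matrix.diagonal_one]
  congr 1
  funext p
  rw [← pow_succ, hF.cube (hF.om.wp_ne_zero _)]

lemma prod_wp (hω : CSixNine.Omega ω) {α : Type*} (s : Finset α) (f : α → K3) :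
    ∏ p ∈ s, wp ω (f p) = wp ω (∑ p ∈ s, f p) := by
  classical
  induction s using Finset.induction with
  | empty => simp
  | insert a s ha ih => rw [Finset.prod_insert ha, Finset.sum_insert ha, ih, hω.wp_add]

lemma qM_det (hF : Four ω) (i : Fin 5) : Matrix.det (qM ω (qc i)) = 1 := by
  rw [qM, Matrix.det_diagonal, prod_wp hF.om, qfn_sum, wp_zero]

lemma qM_nrm (hω : CSixNine.Omega ω) (c : K3 × K3 × K3 × K3) : Nrm9 ω (qM ω c) := by
  intro v
  set a := c.1
  set b := c.2.1
  refine ⟨((v.1.1 + 2 * a * v.1.2, v.1.2), (v.2.1 + 2 * b * v.2.2, v.2.2)),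
    wp ω (-(a * v.1.2 * v.1.2) + -(b * v.2.2 * v.2.2) + (c.2.2.1 * v.1.2 + c.2.2.2 * v.2.2)),
    hω.wp_ne_zero _, ?_⟩
  ext ⟨i, j⟩ ⟨k, l⟩
  rw [qM, Matrix.diagonal_mul, Matrix.smul_apply, Matrix.mul_diagonal]
  simp only [P9, Matrix.kroneckerMap_apply, P3_apply, smul_eq_mul]
  by_cases h1 : i = k + v.1.2
  · by_cases h2 : j = l + v.2.2
    · subst h1 h2
      simp only [if_pos, ← hω.wp_add, qfn, a, b]
      congr 1
      ring
    · simp [h2]
  · simp [h1]

lemma P9_uni (hF : Four ω) (v : W9) : Uni (P9 ω v) := by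
  show ct (P9 ω v) * P9 ω v = 1
  ext ⟨i, j⟩ ⟨k, l⟩
  rw [Matrix.mul_apply, Finset.sum_eq_single (k + v.1.2, l + v.2.2)]
  · simp only [ct_apply, P9, Matrix.kroneckerMap_apply, P3_apply, if_pos, mul_pow]
    by_cases h1 : k = i
    · by_cases h2 : l = j
      · subst h1 h2
        rw [if_pos rfl, if_pos rfl, Matrix.one_apply_eq]
        have e1 := hF.cube (hF.om.wp_ne_zero (v.1.1 * (k + v.1.2)))
        have e2 := hF.cube (hF.om.wp_ne_zero (v.2.1 * (l + v.2.2)))
        linear_combination e1 + wp ω (v.1.1 * (k + v.1.2)) ^ 3 * e2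
      · simp [h2, Ne.symm h2]
    · simp [h1, Ne.symm h1]
  · rintro ⟨x, y⟩ _ hb
    simp only [P9, Matrix.kroneckerMap_apply, P3_apply]
    by_cases h1 : x = k + v.1.2
    · simp [show y ≠ l + v.2.2 from fun h2 => hb (by rw [h1, h2])]
    · simp [h1]
  · simp

lemma det_kron (hF : Four ω) {A B : Matrix K3 K3 F} (hA : Matrix.det A ≠ 0) (hB : Matrix.det B ≠ 0) :
    Matrix.det (A ⊗ₖ B) = 1 := by
  rw [Matrix.det_kronecker, ZMod.card, hF.cube hA, hF.cube hB, one_mul]

lemma P3_det_ne (hω : CSixNine.Omega ω) (v : K3 × K3) : Matrix.det (P3 ω v) ≠ 0 := by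
  intro h
  have := congrArg Matrix.det (P3_mul hω v (-v))
  rw [Matrix.det_mul, h, zero_mul, add_neg_cancel, P3_zero, Matrix.det_smul, Matrix.det_one,
    mul_one] at this
  exact pow_ne_zero _ (hω.wp_ne_zero _) this.symm

variable {M : Matrix I9 I9 F → Prop}

lemma cen_act (hF : Four ω) (hM : Ov ω M) {A : Matrix I9 I9 F} {u : I9 → F} (hA : M A)
    (hu : Cen M u) : Cen M (A *ᵥ u) := by
  show M _
  rw [← tv_conj hF (hM.uni A hA)]
  exact hM.mul _ _ (hM.mul _ _ hA hu) (hM.star A hA)

lemma cen_P9 (hF : Four ω) (hM : Ov ω M) (v : W9) : M (P9 ω v) :=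
  hM.nrm _ (P9_uni hF v) (det_kron hF (P3_det_ne hF.om _) (P3_det_ne hF.om _))
    (Nrm9.weight hF.om v)

/-- One shortening step. -/
lemma cen_short (hF : Four ω) (hM : Ov ω M) {u : I9 → F} (hu : Cen M u)
    (he : (supp u).card % 2 = 0) (h4 : 4 ≤ (supp u).card) :
    ∃ v, Cen M v ∧ (supp v).card < (supp u).card ∧ 2 ≤ (supp v).card ∧ (supp v).card % 2 = 0 := by
  classical
  obtain ⟨i, t, n0, e0, e1, e2⟩ := shorten _ he h4
  set f := qfn (qc i) with hf
  set S := supp u with hS
  have hw : Cen M (qM ω (qc i) *ᵥ u) :=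
    cen_act hF hM (hM.nrm _ (qM_uni hF _) (qM_det hF i) (qM_nrm hF.om _)) hu
  set w := qM ω (qc i) *ᵥ u with hwdef
  have hwp : ∀ p, w p = wp ω (f p) * u p := fun p => by
    rw [hwdef, qM, Matrix.mulVec_diagonal]
  have hv : Cen M (tv w *ᵥ u) := cen_act hF hM hw hu
  have hsum : ∑ k, w k ^ 2 * u k = wp ω (-t) := by
    have h1 : ∀ k, w k ^ 2 * u k = if k ∈ S then wp ω (-f k) else 0 := by
      intro k
      rw [hwp, mul_pow, wp_sq hF.om]
      by_cases h : u k = 0
      · simp [h, hS, mem_supp]
      · rw [if_pos (mem_supp.2 h)]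
        linear_combination wp ω (-f k) * hF.cube h
    rw [Finset.sum_congr rfl fun k _ => h1 k, Finset.sum_ite_mem, Finset.univ_inter,
      ← Finset.sum_fiberwise S f]
    have h2 : ∀ s : K3, ∑ k ∈ S.filter (fun k => f k = s), wp ω (-f k) =
        (((S.filter fun k => f k = s).card % 2 : ℕ) : F) * wp ω (-s) := by
      intro s
      rw [← cast_mod hF, Finset.sum_congr rfl (g := fun _ => wp ω (-s))
        (fun k hk => by rw [(Finset.mem_filter.1 hk).2]), Finset.sum_const, nsmul_eq_mul]
    rw [Finset.sum_congr rfl fun s _ => h2 s,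
      show (Finset.univ : Finset K3) = {t, t + 1, t + 2} from by
        clear * -; revert t; decide,
      Finset.sum_insert (by clear * -; revert t; decide),
      Finset.sum_insert (by clear * -; revert t; decide), Finset.sum_singleton, e0, e1, e2]
    rw [show -(t + 1) = -t + (2 : K3) by clear * -; revert t; decide,
      show -(t + 2) = -t + (1 : K3) by clear * -; revert t; decide, hF.om.wp_add, hF.om.wp_add,
      wp_one, show wp ω (2 : K3) = ω ^ 2 from rfl]
    push_cast
    linear_combination wp ω (-t) * hF.om.eqn - wp ω (-t) * hF.two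
  have hvp : ∀ p, (tv w *ᵥ u) p = u p * (1 + wp ω (f p - t)) := by
    intro p
    rw [tv_mulVec, hsum, Pi.add_apply, Pi.smul_apply, smul_eq_mul, hwp, sub_eq_neg_add,
      hF.om.wp_add]
    ring
  have hsv : supp (tv w *ᵥ u) = S.filter fun p => ¬ f p = t := by
    ext p
    rw [mem_supp, hvp, Finset.mem_filter, hS, mem_supp, mul_ne_zero_iff]
    refine and_congr_right fun _ => not_congr ⟨fun h => ?_, fun h => ?_⟩
    · refine sub_eq_zero.1 (hF.om.wp_inj (b := 0) ?_)
      rw [wp_zero]
      exact (hF.eq_add h).symm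
    · rw [h, sub_self, wp_zero, hF.add_self]
  have hc := Finset.card_filter_add_card_filter_not (s := S) (fun p => f p = t)
  refine ⟨_, hv, ?_, ?_, ?_⟩ <;> rw [hsv]
  · omega
  · have h1 : (S.filter fun p => f p = t + 1) ⊆ S.filter fun p => ¬ f p = t := by
      intro p hp
      rw [Finset.mem_filter] at hp ⊢
      exact ⟨hp.1, fun h => by
        rw [h] at hp
        have := hp.2
        clear * - this
        revert this t; decide⟩
    have h3 := Finset.card_le_card h1
    omega
  · omega

lemma cen_two (hF : Four ω) (hM : Ov ω M) : ∀ n : ℕ, ∀ u : I9 → F, (supp u).card = n → Cen M u →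
    2 ≤ n → n % 2 = 0 → ∃ v, Cen M v ∧ (supp v).card = 2 := by
  intro n
  induction n using Nat.strong_induction_on with
  | _ n ih =>
    intro u hn hu h2 he
    by_cases h : n = 2
    · exact ⟨u, hu, hn.trans h⟩
    · obtain ⟨v, hv, hlt, hv2, hve⟩ := cen_short hF hM hu (by omega) (by omega)
      exact ih _ (by omega) v rfl hv hv2 hve

/-- A vector with two nonzero coordinates. -/
def pv (p q : I9) (a b : F) : I9 → F := fun x => if x = p then a else if x = q then b else 0

/-- All centres on a pair of coordinates. -/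
def Pr (M : Matrix I9 I9 F → Prop) (p q : I9) : Prop :=
  p ≠ q ∧ ∀ a b : F, a ≠ 0 → b ≠ 0 → Cen M (pv p q a b)

lemma pv_comm {p q : I9} (h : p ≠ q) (a b : F) : pv p q a b = pv q p b a := by
  funext x
  by_cases h1 : x = p <;> by_cases h2 : x = q <;> simp_all [pv]

lemma Pr.symm {p q : I9} (h : Pr M p q) : Pr M q p :=
  ⟨h.1.symm, fun a b ha hb => by rw [pv_comm h.1.symm]; exact h.2 b a hb ha⟩

lemma cen_smul (hF : Four ω) {u : I9 → F} {c : F} (hc : c ≠ 0) (h : Cen M u) : Cen M (c • u) := by
  show M _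
  rw [tv_smul hF hc]; exact h

lemma Pr.of_one (hF : Four ω) (hM : Ov ω M) {p q : I9} (hpq : p ≠ q) {a b : F} (ha : a ≠ 0)
    (hb : b ≠ 0) (h : Cen M (pv p q a b)) : Pr M p q := by
  refine ⟨hpq, fun a' b' ha' hb' => ?_⟩
  obtain ⟨t, ht⟩ := hF.om.exists_wp (hF.cube (mul_ne_zero (mul_ne_zero ha' (inv_ne_zero ha))
    (mul_ne_zero (inv_ne_zero hb') hb)))
  obtain ⟨α, γ, e⟩ : ∃ α γ : K3, (α * p.1 + γ * p.2) = t + (α * q.1 + γ * q.2) := by
    have hh : ∀ p q : I9, p ≠ q → ∀ t : K3, ∃ α γ : K3,
        (α * p.1 + γ * p.2) = t + (α * q.1 + γ * q.2) := by decide +kernel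
    exact hh p q hpq t
  have hW := cen_act hF hM (cen_P9 hF hM ((α, 0), (γ, 0))) h
  have hval : ∀ x, (P9 ω ((α, 0), (γ, 0)) *ᵥ pv p q a b) x =
      wp ω (α * x.1 + γ * x.2) * pv p q a b x := by
    intro x
    rw [Matrix.mulVec, dotProduct, Finset.sum_eq_single x]
    · simp [P9, P3_apply, hF.om.wp_add]
    · intro y _ hy
      simp only [P9, Matrix.kroneckerMap_apply, P3_apply, add_zero]
      by_cases h1 : x.1 = y.1
      · rw [if_neg (fun h2 : x.2 = y.2 => hy (Prod.ext h1.symm h2.symm)), mul_zero, zero_mul]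
      · rw [if_neg h1, zero_mul, zero_mul]
    · simp
  obtain ⟨s, hsd⟩ : ∃ s, wp ω (α * q.1 + γ * q.2) = s := ⟨_, rfl⟩
  have hs : s ≠ 0 := hsd ▸ hF.om.wp_ne_zero _
  have hc : b' * b⁻¹ * s⁻¹ ≠ 0 := mul_ne_zero (mul_ne_zero hb' (inv_ne_zero hb)) (inv_ne_zero hs)
  have key : pv p q a' b' = (b' * b⁻¹ * s⁻¹) • (P9 ω ((α, 0), (γ, 0)) *ᵥ pv p q a b) := by
    funext x
    rw [Pi.smul_apply, hval, smul_eq_mul]
    by_cases h1 : x = p
    · subst h1
      rw [show pv x q a b x = a from if_pos rfl, show pv x q a' b' x = a' from if_pos rfl, e,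
        hF.om.wp_add, ← ht, hsd]
      field_simp
    · by_cases h2 : x = q
      · subst h2
        rw [show pv p x a b x = b by simp [pv, h1], show pv p x a' b' x = b' by simp [pv, h1]]
        rw [hsd]
        field_simp
      · simp [pv, h1, h2]
  rw [key]
  exact cen_smul hF hc hW

lemma Pr.move (hF : Four ω) (hM : Ov ω M) (σ : I9 ≃ I9) (hσ : M (perM σ)) {p q : I9}
    (h : Pr M p q) : Pr M (σ p) (σ q) := by
  refine Pr.of_one hF hM (σ.injective.ne h.1) one_ne_zero one_ne_zero ?_
  have := cen_act hF hM hσ (h.2 1 1 one_ne_zero one_ne_zero)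
  rwa [perM_mulVec, show pv p q 1 1 ∘ σ.symm = pv (σ p) (σ q) (1 : F) 1 by
    funext x; simp [pv, Equiv.symm_apply_eq]] at this

/-- The shear of the coordinates. -/
def shear : I9 ≃ I9 where
  toFun p := (p.1 + p.2, p.2)
  invFun p := (p.1 - p.2, p.2)
  left_inv p := by simp
  right_inv p := by simp

lemma perM_add_eq (t : I9) : (perM (Equiv.addRight t) : Matrix I9 I9 F) = P9 ω ((0, t.1), (0, t.2)) := by
  ext ⟨i, j⟩ ⟨k, l⟩
  simp only [perM, P9, Matrix.of_apply, Matrix.kroneckerMap_apply, P3_apply, zero_mul, wp_zero,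
    Equiv.coe_addRight, Prod.ext_iff, Prod.fst_add, Prod.snd_add]
  by_cases h1 : i = k + t.1 <;> by_cases h2 : j = l + t.2 <;> simp [h1, h2]

lemma perM_swap : (perM (Equiv.prodComm K3 K3) : Matrix I9 I9 F) = swM := by
  ext p q
  simp only [perM, swM, Matrix.of_apply, Equiv.coe_prodComm]
  rfl

lemma shear_nrm (hω : CSixNine.Omega ω) : Nrm9 ω (perM shear : Matrix I9 I9 F) := by
  intro v
  refine ⟨((v.1.1, v.1.2 + v.2.2), (v.2.1 - v.1.1, v.2.2)), 1, one_ne_zero, ?_⟩
  rw [one_smul]
  ext ⟨i, j⟩ ⟨k, l⟩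
  rw [Matrix.mul_apply, Finset.sum_eq_single (i - j, j), Matrix.mul_apply,
    Finset.sum_eq_single (k + l, l)]
  · simp only [perM, Matrix.of_apply, shear, Equiv.coe_fn_mk, sub_add_cancel, P9,
      Matrix.kroneckerMap_apply, P3_apply, if_true, one_mul, mul_one]
    by_cases h2 : j = l + v.2.2
    · subst h2
      by_cases h1 : i = k + l + (v.1.2 + v.2.2)
      · subst h1
        rw [if_pos (by ring), if_pos rfl, if_pos rfl, if_pos rfl, ← hω.wp_add, ← hω.wp_add]
        congr 1; ring
      · rw [if_neg (fun h => h1 (by linear_combination h)), if_neg h1]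
        simp
    · simp [h2]
  · rintro ⟨x, y⟩ _ hb
    simp only [perM, Matrix.of_apply, shear, Equiv.coe_fn_mk]
    simp [hb]
  · simp
  · rintro ⟨x, y⟩ _ hb
    simp only [perM, Matrix.of_apply, shear, Equiv.coe_fn_mk, Prod.ext_iff]
    rw [if_neg (fun h => hb (by ext <;> simp [h.1, h.2])), zero_mul]
  · simp

lemma Pr.all (hF : Four ω) (hM : Ov ω M) {p q : I9} (h : Pr M p q) {p' q' : I9} (hne : p' ≠ q') :
    Pr M p' q' := by
  have hT : ∀ t, M (perM (Equiv.addRight t)) := fun t => by
    rw [perM_add_eq (ω := ω) t]; exact cen_P9 hF hM _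
  have hS : M (perM shear) := hM.nrm _ (perM_uni _) (perM_det hF _) (shear_nrm hF.om)
  have hW : M (perM (Equiv.prodComm K3 K3)) :=
    hM.nrm _ (perM_uni _) (perM_det hF _) (by rw [perM_swap]; exact Nrm9.swap)
  -- pairs through the origin
  have shift : ∀ {a b : I9}, Pr M a b → Pr M 0 (b - a) := fun {a b} hab => by
    have := hab.move hF hM _ (hT (-a))
    simpa [sub_eq_add_neg] using this
  have fSh : ∀ {d : I9} (n : ℕ), Pr M 0 d → Pr M 0 ((shear : I9 → I9)^[n] d) := by
    intro d n hd
    induction n with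
    | zero => exact hd
    | succ n ih =>
      rw [Function.iterate_succ_apply']
      have := ih.move hF hM _ hS
      rwa [show shear (0 : I9) = 0 by decide] at this
  have fSw : ∀ {d : I9} (n : ℕ), Pr M 0 d → Pr M 0 ((Prod.swap : I9 → I9)^[n] d) := by
    intro d n hd
    induction n with
    | zero => exact hd
    | succ n ih =>
      rw [Function.iterate_succ_apply']
      exact ih.move hF hM _ hW
  have fNeg : ∀ {d : I9}, Pr M 0 d → Pr M 0 (-d) := fun {d} hd => by
    have := shift hd.symm
    simpa using this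
  have toX : ∀ d : I9, d ≠ 0 → ∃ n m : Fin 3,
      (Prod.swap : I9 → I9)^[m.val] ((shear : I9 → I9)^[n.val] d) = (1, 0) ∨
      (Prod.swap : I9 → I9)^[m.val] ((shear : I9 → I9)^[n.val] d) = -(1, 0) := by decide +kernel
  have ofX : ∀ d : I9, d ≠ 0 → ∃ n m : Fin 3,
      (shear : I9 → I9)^[n.val] ((Prod.swap : I9 → I9)^[m.val] (1, 0)) = d ∨
      (shear : I9 → I9)^[n.val] ((Prod.swap : I9 → I9)^[m.val] (-(1, 0))) = d := by decide +kernel
  have h10 : Pr M 0 ((1, 0) : I9) := by
    obtain ⟨n, m, e | e⟩ := toX (q - p) (sub_ne_zero.2 h.1.symm)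
    · have := fSw m.val (fSh n.val (shift h)); rwa [e] at this
    · have := fNeg (fSw m.val (fSh n.val (shift h))); rwa [e, neg_neg] at this
  have h0 : Pr M 0 (q' - p') := by
    obtain ⟨n, m, e | e⟩ := ofX (q' - p') (sub_ne_zero.2 hne.symm)
    · have := fSh n.val (fSw m.val h10); rwa [e] at this
    · have := fSh n.val (fSw m.val (fNeg h10)); rwa [e] at this
  have := h0.move hF hM _ (hT p')
  simpa using this

/-- All pairs are centres. -/
def AllPr (M : Matrix I9 I9 F → Prop) : Prop := ∀ p q : I9, p ≠ q → Pr M p q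

lemma allPr_of (hF : Four ω) (hM : Ov ω M) {u : I9 → F} (hu : u ≠ 0)
    (hiso : ∑ i, u i ^ 3 = 0) (hmem : M (tv u)) : AllPr M := by
  classical
  have he := even_supp hF hiso
  have h0 : (supp u).card ≠ 0 := by
    intro h
    refine hu (funext fun p => ?_)
    by_contra hp
    have : p ∈ supp u := mem_supp.2 hp
    rw [Finset.card_eq_zero.1 h] at this
    simp at this
  obtain ⟨v, hv, hv2⟩ := cen_two hF hM _ u rfl hmem (by omega) he
  obtain ⟨p, q, hpq, e⟩ := Finset.card_eq_two.1 hv2
  have hv' : v = pv p q (v p) (v q) := by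
    funext x
    by_cases h1 : x = p
    · simp [pv, h1]
    · by_cases h2 : x = q
      · subst h2; simp [pv, h1]
      · have : x ∉ supp v := by simp [e, h1, h2]
        rw [mem_supp, not_not] at this
        simp [pv, h1, h2, this]
  rw [hv'] at hv
  have hp : v p ≠ 0 := mem_supp.1 (by simp [e])
  have hq : v q ≠ 0 := mem_supp.1 (by simp [e])
  exact fun p' q' h => (Pr.of_one hF hM hpq hp hq hv).all hF hM h

/-- The monomial element of a pair. -/
lemma cen_pair (hF : Four ω) (hM : Ov ω M) (hA : AllPr M) {p q : I9} (hpq : p ≠ q) {a : F}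
    (ha : a ≠ 0) {v : I9 → F} (hv : Cen M v) :
    Cen M (fun x => if x = p then a * v q else if x = q then a ^ 2 * v p else v x) := by
  have h := cen_act hF hM ((hA p q hpq).2 a 1 ha one_ne_zero) hv
  have hs : ∑ k, pv p q a 1 k ^ 2 * v k = a ^ 2 * v p + v q := by
    rw [Finset.sum_eq_add p q hpq (fun k _ hk => by simp [pv, hk.1, hk.2]) (by simp) (by simp)]
    simp [pv, hpq.symm]
  rw [tv_mulVec, hs] at h
  convert h using 1
  funext x
  simp only [Pi.add_apply, Pi.smul_apply, smul_eq_mul, pv]
  by_cases h1 : x = p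
  · subst h1
    simp only [if_pos]
    linear_combination -v x * hF.cube ha - v x * hF.two
  · by_cases h2 : x = q
    · subst h2
      simp only [if_neg h1, if_pos]
      linear_combination -v x * hF.two
    · simp [h1, h2]

lemma cen_swap (hF : Four ω) (hM : Ov ω M) (hA : AllPr M) (p q : I9) {v : I9 → F} (hv : Cen M v) :
    Cen M (v ∘ Equiv.swap p q) := by
  by_cases hpq : p = q
  · subst hpq; simpa [Equiv.swap_self] using hv
  convert cen_pair hF hM hA hpq one_ne_zero hv using 1
  funext x
  by_cases h1 : x = p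
  · simp [h1]
  · by_cases h2 : x = q
    · subst h2; simp [h1]
    · simp [h1, h2, Equiv.swap_apply_of_ne_of_ne h1 h2]

lemma cen_perm (hF : Four ω) (hM : Ov ω M) (hA : AllPr M) (e : Equiv.Perm I9) :
    ∀ {v : I9 → F}, Cen M v → Cen M (v ∘ e) := by
  induction e using Equiv.Perm.swap_induction_on with
  | one => intro v hv; simpa using hv
  | swap_mul f x y _ ih =>
    intro v hv
    have := ih (cen_swap hF hM hA x y hv)
    rwa [Equiv.Perm.coe_mul, ← Function.comp_assoc]

lemma cen_scale (hF : Four ω) (hM : Ov ω M) (hA : AllPr M) {p q : I9} (hpq : p ≠ q) {z : F}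
    (hz : z ≠ 0) {v : I9 → F} (hq : v q = 0) (hv : Cen M v) : Cen M (Function.update v p (z * v p)) := by
  obtain ⟨a, ha, rfl⟩ : ∃ a : F, a ≠ 0 ∧ a ^ 2 = z := ⟨z ^ 2, pow_ne_zero _ hz, hF.sq_sq z⟩
  convert cen_pair hF hM hA hpq one_ne_zero (cen_pair hF hM hA hpq ha hv) using 1
  funext x
  by_cases h1 : x = p
  · subst h1
    simp [Ne.symm hpq]
  · by_cases h2 : x = q
    · subst h2
      simp [Function.update_of_ne h1, h1, hq]
    · simp [Function.update_of_ne h1, h1, h2]

/-- Centres are determined by the size of their supports. -/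
lemma cen_card (hF : Four ω) (hM : Ov ω M) (hA : AllPr M) {v w : I9 → F} (hv : Cen M v)
    (h : (supp w).card = (supp v).card) (hlt : (supp v).card < 9) : Cen M w := by
  classical
  -- same support
  have same : ∀ v w : I9 → F, Cen M v → supp w = supp v → (supp v).card < 9 → Cen M w := by
    intro v w hv hs hlt
    obtain ⟨q, hq⟩ : ∃ q, v q = 0 := by
      by_contra hcon
      push Not at hcon
      rw [show supp v = Finset.univ from Finset.ext fun p => by simp [mem_supp, hcon p]] at hlt
      simp [Fintype.card_prod] at hlt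
    have key : ∀ T : Finset I9, q ∉ T → Cen M (fun x => if x ∈ T then w x else v x) := by
      intro T
      induction T using Finset.induction with
      | empty => intro _; simpa using hv
      | insert p T hp ih =>
        intro hqT
        simp only [Finset.mem_insert, not_or] at hqT
        by_cases hvp : v p = 0
        · have hwp : w p = 0 := by
            by_contra hne
            have : p ∈ supp w := mem_supp.2 hne
            rw [hs, mem_supp] at this
            exact this hvp
          convert ih hqT.2 using 1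
          funext x
          by_cases hx : x = p
          · subst hx; simp [hp, hvp, hwp]
          · simp [hx]
        · have hwp : w p ≠ 0 := by
            have : p ∈ supp w := by rw [hs]; exact mem_supp.2 hvp
            exact mem_supp.1 this
          have h0 := cen_scale hF hM hA (Ne.symm hqT.1) (mul_ne_zero hwp (inv_ne_zero hvp))
            (v := fun x => if x ∈ T then w x else v x) (by simp [hqT.2, hq]) (ih hqT.2)
          convert h0 using 1
          funext x
          by_cases hx : x = p
          · subst hx; simp [hp, hvp]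
          · simp [hx, Function.update_of_ne hx]
    have hwq : w q = 0 := by
      by_contra hne
      have : q ∈ supp w := mem_supp.2 hne
      rw [hs, mem_supp] at this
      exact this hq
    convert key (Finset.univ.erase q) (by simp) using 1
    funext x
    by_cases hx : x = q
    · subst hx; simp [hq, hwq]
    · simp [hx]
  let e0 := Finset.equivOfCardEq h
  let e : Equiv.Perm I9 := e0.extendSubtype
  refine same (v ∘ e) w (cen_perm hF hM hA e hv) ?_ ?_
  · ext x
    rw [mem_supp, mem_supp, Function.comp_apply]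
    constructor
    · intro hx
      have := e0.extendSubtype_mem x (mem_supp.2 hx)
      exact mem_supp.1 this
    · intro hx
      by_contra hne
      exact e0.extendSubtype_not_mem x (fun hh => mem_supp.1 hh hne) (mem_supp.2 hx)
  · have : (supp (v ∘ e)).card = (supp v).card := by
      refine Finset.card_equiv e fun x => ?_
      rw [mem_supp, mem_supp]; rfl
    omega

lemma four_uni (hF : Four ω) : Uni (fourM ω) := by
  show ct (fourM ω) * fourM ω = 1
  ext i k
  rw [Matrix.mul_apply]
  rw [show ∑ x, ct (fourM ω) i x * fourM ω x k = if k - i = 0 then (3 : F) else 0 by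
    rw [← sum_wp hF.om]
    refine Finset.sum_congr rfl fun x _ => ?_
    rw [ct_apply, fourM, Matrix.of_apply, Matrix.of_apply, wp_sq hF.om, ← hF.om.wp_add]
    congr 1; ring]
  by_cases h : i = k
  · subst h; rw [sub_self, if_pos rfl, Matrix.one_apply_eq]; linear_combination hF.two
  · rw [if_neg (sub_ne_zero.2 (Ne.symm h)), Matrix.one_apply_ne h]

lemma uni_kron (hF : Four ω) {A B : Matrix K3 K3 F} (hA : Uni A) (hB : Uni B) : Uni (A ⊗ₖ B) := by
  show ct (A ⊗ₖ B) * (A ⊗ₖ B) = 1
  rw [ct_kronecker, kron_mul, show ct A * A = 1 from hA, show ct B * B = 1 from hB,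
    Matrix.one_kronecker_one]

/-- Six points. -/
def six : Finset I9 := Finset.univ.filter fun p => p.2 ≠ 2

/-- Exponents used to build centres with four and with eight coordinates. -/
def gx (p : I9) : K3 := if p.2 = 1 then 2 else if p = (2, 0) then 1 else 0

/-- Six points meeting `six` in four. -/
def six' : Finset I9 := Finset.univ.filter fun p => p ≠ (0, 0) ∧ p ≠ (1, 0) ∧ p ≠ (2, 2)

/-- Every isotropic vector is a centre. -/
lemma cen_iso (hF : Four ω) (hM : Ov ω M) (hA : AllPr M) {w : I9 → F}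
    (hiso : ∑ i, w i ^ 3 = 0) : Cen M w := by
  classical
  let ind : Finset I9 → (I9 → K3) → I9 → F := fun S g x => if x ∈ S then wp ω (g x) else 0
  have hsupp : ∀ S g, supp (ind S g) = S := fun S g => by
    ext x; by_cases hx : x ∈ S <;> simp [ind, mem_supp, hx, hF.om.wp_ne_zero]
  have c2 : Cen M (pv (0, 0) (0, 1) (1 : F) 1) :=
    (hA (0, 0) (0, 1) (by decide)).2 1 1 one_ne_zero one_ne_zero
  have hW : M (fourM ω ⊗ₖ (1 : Matrix K3 K3 F)) := by
    refine hM.nrm _ (uni_kron hF (four_uni hF) Uni.one) (det_kron hF ?_ (by simp))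
      (Nrm9.kron (Nrm3.of_induces (four_P3 hF.om)) Nrm3.one)
    intro h0
    have := congrArg Matrix.det (show ct (fourM ω) * fourM ω = 1 from four_uni hF)
    rw [Matrix.det_mul, h0, mul_zero, Matrix.det_one] at this
    exact zero_ne_one this
  have c6 : Cen M (ind six fun _ => 0) := by
    convert cen_act hF hM hW c2 using 1
    funext ⟨i, j⟩
    rw [Matrix.mulVec, dotProduct, Finset.sum_eq_add ((0, 0) : I9) ((0, 1) : I9) (by decide)
      (fun x _ hx => by simp [pv, hx.1, hx.2]) (by simp) (by simp)]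
    simp only [Matrix.kroneckerMap_apply, fourM, Matrix.of_apply, mul_zero, wp_zero, one_mul, pv,
      if_pos, ind, six, Finset.mem_filter, Finset.mem_univ, true_and]
    have hj : j = 0 ∨ j = 1 ∨ j = 2 := by clear * -; revert j; decide
    rcases hj with rfl | rfl | rfl <;>
      simp (config := { decide := true }) [Matrix.one_apply]
  have hsix : ∀ S g, S.card = 6 → Cen M (ind S g) := fun S g hS =>
    cen_card hF hM hA c6 (by rw [hsupp, hsupp, hS]; decide) (by rw [hsupp]; decide)
  have comb : ∀ S : Finset I9, S.card = 6 →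
      ∑ k, ind S gx k ^ 2 * ind six (fun _ => 0) k = 1 →
      Cen M (ind six (fun _ => 0) + ind S gx) := by
    intro S hS hc
    have := cen_act hF hM (hsix S gx hS) c6
    rwa [tv_mulVec, hc, one_smul] at this
  have three : ∀ f : K3 → F, ∑ x, f x = f 0 + f 1 + f 2 := sum_three
  have w2 : wp ω (2 : K3) = ω ^ 2 := rfl
  have w1 : wp ω (1 : K3) = ω := wp_one
  have c4 : ∃ v, Cen M v ∧ (supp v).card = 4 := by
    refine ⟨_, comb six (by decide) ?_, ?_⟩
    · rw [Fintype.sum_prod_type, three]
      simp only [three, ind, six, gx, Finset.mem_filter, Finset.mem_univ, true_and]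
      simp (config := { decide := true }) [w1, w2]
      linear_combination ω * hF.two + (3 * ω) * hF.om.cube + hF.om.eqn
    · have : supp (ind six (fun _ => 0) + ind six gx) = six.filter fun p => gx p ≠ 0 := by
        ext x
        by_cases hx : x ∈ six
        · rw [mem_supp, Pi.add_apply, Finset.mem_filter]
          simp only [ind, if_pos hx, wp_zero]
          refine ⟨fun h => ⟨hx, fun h' => h ?_⟩, fun h h' => h.2 ?_⟩
          · rw [h', wp_zero, hF.add_self]
          · exact hF.om.wp_inj (by rw [wp_zero]; exact (hF.eq_add h').symm)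
        · simp [mem_supp, ind, hx]
      rw [this]; decide
  have c8 : ∃ v, Cen M v ∧ (supp v).card = 8 := by
    refine ⟨_, comb six' (by decide) ?_, ?_⟩
    · rw [Fintype.sum_prod_type, three]
      simp only [three, ind, six, six', gx, Finset.mem_filter, Finset.mem_univ, true_and]
      simp (config := { decide := true }) [w1, w2]
      linear_combination (ω - 1) * hF.two + (3 * ω) * hF.om.cube + hF.om.eqn
    · have : supp (ind six (fun _ => 0) + ind six' gx) = six ∪ six' := by
        have hg : ∀ x, x ∈ six → x ∈ six' → gx x ≠ 0 := by decide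
        ext x
        rw [mem_supp, Pi.add_apply, Finset.mem_union]
        by_cases hx : x ∈ six <;> by_cases hy : x ∈ six' <;> simp [ind, hx, hy, hF.om.wp_ne_zero]
        intro h'
        exact hg x hx hy (hF.om.wp_inj (by rw [wp_zero]; exact (hF.eq_add h').symm))
      rw [this]; decide
  have he := even_supp hF hiso
  have h9 : (supp w).card ≤ 9 := by
    have := Finset.card_le_univ (supp w)
    simpa [Fintype.card_prod] using this
  have hn : (supp w).card = 0 ∨ (supp w).card = 2 ∨ (supp w).card = 4 ∨ (supp w).card = 6 ∨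
      (supp w).card = 8 := by omega
  rcases hn with h | h | h | h | h
  · have hw : w = 0 := by
      funext p
      by_contra hp
      have : p ∈ supp w := mem_supp.2 hp
      rw [Finset.card_eq_zero.1 h] at this
      simp at this
    show M _
    rw [hw, show tv (0 : I9 → F) = 1 by ext i k; simp [tv]]
    exact hM.one
  · have hs : supp (pv (0, 0) (0, 1) (1 : F) 1) = {((0 : K3), (0 : K3)), (0, 1)} := by
      ext x
      by_cases h1 : x = (0, 0) <;> by_cases h2 : x = (0, 1) <;> simp [mem_supp, pv, h1, h2]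
    refine cen_card hF hM hA c2 ?_ ?_ <;> rw [hs]
    · rw [h]; decide
    · decide
  · obtain ⟨v, hv, e⟩ := c4
    exact cen_card hF hM hA hv (by omega) (by omega)
  · exact cen_card hF hM hA c6 (by rw [h, hsupp]; decide) (by rw [hsupp]; decide)
  · obtain ⟨v, hv, e⟩ := c8
    exact cen_card hF hM hA hv (by omega) (by omega)

/-- One transvection gives the whole special unitary group. -/
theorem full_of_tv [Fintype F] (hF : Four ω) {M : Matrix I9 I9 F → Prop} (hM : Ov ω M)
    {u : I9 → F} (hu : u ≠ 0) (hiso : ∑ i, u i ^ 3 = 0) (hmem : M (tv u)) :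
    ∀ A, Uni A → Matrix.det A = 1 → M A := by
  classical
  have hA := allPr_of hF hM hu hiso hmem
  have hall : ∀ w : I9 → F, ∑ i, w i ^ 3 = 0 → M (tv w) := fun w hw => cen_iso hF hM hA hw
  have hcard : Fintype.card F = 2 ^ 2 := by
    have h2 : Finset.univ = ({0, 1, ω, ω ^ 2} : Finset F) := by
      refine (Finset.eq_univ_of_forall fun x => ?_).symm
      rcases hF.cases x with h | h | h | h <;> simp [h]
    have n1 := hF.om.ne_zero
    have n2 := hF.om.ne_one
    have n3 : ω ^ 2 ≠ ω := fun h => n2 (mul_left_cancel₀ n1 (by rw [mul_one, ← pow_two, h]))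
    have n4 : ω ^ 2 ≠ 1 := fun h => n2 (by linear_combination hF.om.cube - ω * h)
    rw [← Finset.card_univ, h2, Finset.card_insert_of_notMem (by simp [n1.symm, (pow_ne_zero 2 n1).symm]),
      Finset.card_insert_of_notMem (by simp [n2.symm, n4.symm]),
      Finset.card_insert_of_notMem (by simp [n3.symm]), Finset.card_singleton]
    norm_num
  have hSq := Classical.U.sqField_of_fintype hcard
  let e9 : I9 ≃ Fin 9 := Fintype.equivFinOfCardEq (by simp [Fintype.card_prod])
  let mat : Classical.U.UG 9 F 2 → Matrix I9 I9 F := fun g =>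
    (LinearMap.toMatrix' (g.1 : (Fin 9 → F) →ₗ[F] Fin 9 → F)).submatrix e9 e9
  have hmul : ∀ g h, mat (g * h) = mat g * mat h := fun g h => by
    simp only [mat, Subgroup.coe_mul]
    rw [Matrix.submatrix_mul_equiv, ← LinearMap.toMatrix'_comp]
    rfl
  have hone : mat 1 = 1 := by
    simp [mat]
  let H : Subgroup (Classical.U.UG 9 F 2) :=
    { carrier := {g | M (mat g)}
      one_mem' := by show M _; rw [hone]; exact hM.one
      mul_mem' := fun {g h} hg hh => by show M _; rw [hmul]; exact hM.mul _ _ hg hh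
      inv_mem' := fun {g} hg => by
        show M _
        have h1 : mat g⁻¹ * mat g = 1 := by rw [← hmul, inv_mul_cancel, hone]
        have h2 : mat g⁻¹ = ct (mat g) := by
          calc mat g⁻¹ = mat g⁻¹ * (mat g * ct (mat g)) := by
                rw [(hM.uni _ hg).mul_ct, Matrix.mul_one]
            _ = ct (mat g) := by rw [← Matrix.mul_assoc, h1, Matrix.one_mul]
        rw [h2]; exact hM.star _ hg }
  have hTG : Classical.U.TG 9 F 2 ≤ H := by
    rw [Classical.U.TG, Subgroup.closure_le]
    rintro g ⟨e, a, ⟨he, ha⟩, hg⟩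
    show M (mat g)
    have hcases : a = 0 ∨ a = 1 := by
      have : a * (a - 1) = 0 := by linear_combination ha - a * hF.two
      exact (mul_eq_zero.1 this).imp id sub_eq_zero.1
    rcases hcases with rfl | rfl
    · have : mat g = 1 := by
        ext i k
        simp only [mat, Matrix.submatrix_apply, LinearMap.toMatrix'_apply, LinearEquiv.coe_coe, hg]
        simp [Matrix.one_apply, Pi.single_apply, eq_comm]
      rw [this]; exact hM.one
    · have hz : ∑ i, (e ∘ e9) i ^ 3 = 0 := by
        have : ∑ i, e i * e i ^ 2 = 0 := he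
        rw [← e9.sum_comp] at this
        rw [← this]
        exact Finset.sum_congr rfl fun i _ => by rw [Function.comp_apply]; ring
      have : mat g = tv (e ∘ e9) := by
        ext i k
        simp only [mat, Matrix.submatrix_apply, LinearMap.toMatrix'_apply, LinearEquiv.coe_coe, hg,
          one_mul]
        simp only [tv, Matrix.add_apply, Matrix.one_apply, Matrix.of_apply, Pi.add_apply,
          Pi.smul_apply, smul_eq_mul, Function.comp_apply, Classical.U.herm_def]
        rw [Finset.sum_eq_single (e9 k)]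
        · simp [Pi.single_apply, eq_comm, mul_comm]
        · intro b _ hb; simp [Pi.single_apply, hb]
        · simp
      rw [this]; exact hall _ hz
  intro A hAu hAd
  let B : Matrix (Fin 9) (Fin 9) F := A.submatrix e9.symm e9.symm
  have hB : ct B * B = 1 := by
    show ct (A.submatrix e9.symm e9.symm) * A.submatrix e9.symm e9.symm = 1
    rw [ct_submatrix, Matrix.submatrix_mul_equiv, show ct A * A = 1 from hAu,
      Matrix.submatrix_one_equiv]
  have hBd : Matrix.det B = 1 := by
    rw [show Matrix.det B = Matrix.det A from Matrix.det_submatrix_equiv_self _ _, hAd]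
  let T : (Fin 9 → F) ≃ₗ[F] (Fin 9 → F) :=
    Classical.U.glEquiv 9 F ⟨B, ct B, mul_eq_one_comm.1 hB, hB⟩
  have hT : T ∈ Classical.U.UG 9 F 2 := by
    intro u v
    show ∑ i, (B *ᵥ u) i * (B *ᵥ v) i ^ 2 = ∑ i, u i * v i ^ 2
    have h1 : ∀ i, (B *ᵥ v) i ^ 2 = ∑ b, ct B b i * v b ^ 2 := fun i => by
      simp only [Matrix.mulVec, dotProduct, hF.sq_sum, ct_apply, mul_pow]
    simp only [h1]
    simp only [Matrix.mulVec, dotProduct, Finset.sum_mul]
    rw [Finset.sum_comm]
    refine Finset.sum_congr rfl fun a _ => ?_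
    simp only [Finset.mul_sum]
    rw [Finset.sum_comm]
    have h2 : ∀ b, ∑ i, ct B b i * B i a = if b = a then 1 else 0 := fun b => by
      have := congrFun (congrFun hB b) a
      rwa [Matrix.mul_apply, Matrix.one_apply] at this
    calc ∑ b, ∑ i, B i a * u a * (ct B b i * v b ^ 2)
        = ∑ b, (∑ i, ct B b i * B i a) * (u a * v b ^ 2) :=
          Finset.sum_congr rfl fun b _ => by
            rw [Finset.sum_mul]; exact Finset.sum_congr rfl fun i _ => by ring
      _ = u a * v a ^ 2 := by simp [h2]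
  let g : Classical.U.UG 9 F 2 := ⟨T, hT⟩
  have hgS : g ∈ Classical.U.SUG 9 F 2 := by
    rw [Classical.U.mem_SUG]
    show LinearEquiv.det T = 1
    rw [Classical.U.det_glEquiv]
    refine Units.ext ?_
    rw [Matrix.GeneralLinearGroup.val_det_apply, Units.val_one]
    exact hBd
  rw [Classical.U.SUG_eq_TG hSq (by norm_num) (by norm_num)] at hgS
  have := hTG hgS
  have e : mat g = A := by
    ext i k
    show LinearMap.toMatrix' (T : (Fin 9 → F) →ₗ[F] Fin 9 → F) (e9 i) (e9 k) = A i k
    rw [LinearMap.toMatrix'_apply, LinearEquiv.coe_coe, Classical.U.glEquiv_apply]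
    show (B *ᵥ _) (e9 i) = _
    rw [Matrix.mulVec, dotProduct, Finset.sum_eq_single (e9 k)]
    · rw [Pi.single_eq_same, mul_one]
      simp only [B, Matrix.submatrix_apply, Equiv.symm_apply_apply]
    · intro b _ hb; rw [Pi.single_eq_of_ne hb, mul_zero]
    · intro hh; exact absurd (Finset.mem_univ _) hh
  rw [← e]; exact this

end Nine

end Cfsg.Agent.CSixNineTwo
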