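import Cfsg.Agent.CSixNineTwo.Coord
import Cfsg.Agent.CSixNineTwo.Trans

/-!
Maximality in `SU₉(2)` of normalisers of groups of symplectic type of order `3^5`, given that an
overgroup without transvections normalises the weight lines.
-/

set_option autoImplicit false
set_option linter.unusedSectionVars false

namespace Cfsg.Agent.CSixNineTwo

open Matrix Cfsg.Geo Cfsg.Agent.CSixNine
open scoped MatrixGroups Matrix Kronecker commutatorElement

universe u

variable {F : Type u} [Field F] {ω : F}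

lemma four_of_card [Fintype F] (hcard : Fintype.card F = 4) (hω : CSixNine.Omega ω) : Four ω := by
  have h4 : ∀ x : F, x ^ 4 = x := fun x => by
    have := FiniteField.pow_card x
    rwa [hcard] at this
  refine ⟨hω, ?_, fun x => ?_⟩
  · have := FiniteField.cast_card_eq_zero F
    rw [hcard] at this
    rcases mul_eq_zero.1 (show (2 : F) * 2 = 0 by norm_num; exact_mod_cast this) with h | h <;>
      exact h
  · by_cases h0 : x = 0
    · exact Or.inl h0
    right
    have h3 : x ^ 3 = 1 := mul_left_cancel₀ h0 (by rw [mul_one, ← pow_succ', h4])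
    have : (x - 1) * ((x - ω) * (x - ω ^ 2)) = 0 := by
      linear_combination h3 - (x ^ 2 - x * ω) * hω.eqn - hω.cube
    rcases mul_eq_zero.1 this with h | h
    · exact Or.inl (sub_eq_zero.1 h)
    · rcases mul_eq_zero.1 h with h | h
      · exact Or.inr (Or.inl (sub_eq_zero.1 h))
      · exact Or.inr (Or.inr (sub_eq_zero.1 h))

lemma rdata_of_group [Fintype F] (hcard : Fintype.card F = 4) {R : Subgroup (GL (Fin 9) F)}
    (hst : IsSymplecticTypeGroup 3 R) (hirr : ActsAbsolutelyIrreducibly (matrixSet R))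
    (hR : Nat.card R = 243) (hZ : Nat.card (Subgroup.center R) = 3) :
    ∃ ω : F, RData ω R ∧ Four ω := by
  haveI : Fact (Nat.Prime 3) := ⟨Nat.prime_three⟩
  haveI : Group.IsNilpotent R := hst.pGroup.isNilpotent
  have hexp : Monoid.exponent R = 3 := by rw [hst.exponent_eq]; rfl
  have hcl : commutator R ≤ Subgroup.center R :=
    MaxSub.commutator_le_center_of_cyclic_char hst.cyclic_of_characteristic (hexp.trans hZ.symm)
  have hcube : ∀ g ∈ R, g ^ 3 = 1 := fun g hg => by
    have := Monoid.pow_exponent_eq_one (⟨g, hg⟩ : R)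
    rw [hexp] at this
    exact congrArg (fun x : R => (x : GL (Fin 9) F)) this
  have h2 : (2 : F) = 0 := by
    have := FiniteField.cast_card_eq_zero F
    rw [hcard] at this
    rcases mul_eq_zero.1 (show (2 : F) * 2 = 0 by norm_num; exact_mod_cast this) with h | h <;>
      exact h
  have h3 : (3 : F) ≠ 0 := fun h => one_ne_zero (by linear_combination h - h2)
  have hsc : ∀ g ∈ R, ∀ c : F, (g : Matrix (Fin 9) (Fin 9) F) = c • 1 → c ^ 3 = 1 := by
    intro g hg c hc
    have := congrArg (fun x : GL (Fin 9) F => (x : Matrix (Fin 9) (Fin 9) F)) (hcube g hg)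
    simp only [Units.val_pow_eq_pow_val, Units.val_one, hc, smul_pow, one_pow] at this
    exact smul_left_injective F one_ne_zero (this.trans (one_smul F _).symm)
  have hlt : Nontrivial (Subgroup.center R) :=
    Finite.one_lt_card_iff_nontrivial.1 (by rw [hZ]; norm_num)
  obtain ⟨⟨z, hz⟩, hz1⟩ := exists_ne (1 : Subgroup.center R)
  obtain ⟨ω, hω⟩ := MaxSub.exists_scalar_of_mem_center hirr hz
  have hω1 : ω ≠ 1 := by
    rintro rfl
    refine hz1 (Subtype.ext (Subtype.ext (Units.ext ?_)))
    rw [hω, one_smul]; rfl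
  have hO : CSixNine.Omega ω := by
    refine ⟨?_, h3⟩
    have h := hsc _ z.2 ω hω
    have : (ω - 1) * (ω ^ 2 + ω + 1) = 0 := by linear_combination h
    exact (mul_eq_zero.1 this).resolve_left (sub_ne_zero.2 hω1)
  refine ⟨ω, ⟨hO, hR, hcube, ⟨z, z.2, hω⟩, ?_, ?_⟩, four_of_card hcard hO⟩
  · intro a ha b hb
    have hmem : ⁅(⟨a, ha⟩ : R), (⟨b, hb⟩ : R)⁆ ∈ Subgroup.center R :=
      hcl (Subgroup.commutator_mem_commutator (Subgroup.mem_top _) (Subgroup.mem_top _))
    obtain ⟨c, hc⟩ := MaxSub.exists_scalar_of_mem_center hirr hmem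
    obtain ⟨t, ht⟩ := hO.exists_wp (hsc _ (Subtype.prop _) c hc)
    refine ⟨t, ?_⟩
    have h1 : a * b = ((⁅(⟨a, ha⟩ : R), (⟨b, hb⟩ : R)⁆ : R) : GL (Fin 9) F) * (b * a) := by
      simp [commutatorElement_def, mul_assoc]
    rw [← Units.val_mul, h1, Units.val_mul, hc, ht, Units.val_mul, Matrix.smul_mul, Matrix.one_mul]
  · intro g hg h
    obtain ⟨c, hc⟩ := MaxSub.exists_scalar_of_mem_center hirr (z := ⟨g, hg⟩)
      (Subgroup.mem_center_iff.2 fun y => Subtype.ext (h y y.2).symm)
    obtain ⟨t, ht⟩ := hO.exists_wp (hsc g hg c hc)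
    exact ⟨t, by rw [← ht]; exact hc⟩

section Sim

variable {n : ℕ}

lemma hermForm_mulVec (hF : Four ω) (g : Matrix (Fin n) (Fin n) F) (u v : Fin n → F) :
    Cfsg.hermForm n F 2 (g *ᵥ u) (g *ᵥ v) = ∑ a, ∑ b, (ct g * g) b a * (u a * v b ^ 2) := by
  unfold Cfsg.hermForm
  simp only [Matrix.mulVec, dotProduct, Matrix.mul_apply, ct_apply, Finset.sum_mul, hF.sq_sum]
  rw [Finset.sum_comm]
  refine Finset.sum_congr rfl fun a _ => ?_
  simp only [Finset.mul_sum]
  rw [Finset.sum_comm]
  exact Finset.sum_congr rfl fun b _ => Finset.sum_congr rfl fun i _ => by ring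

lemma mem_GU_iff (hF : Four ω) (g : GL (Fin n) F) :
    g ∈ Cfsg.GU n F 2 ↔ Uni (g : Matrix (Fin n) (Fin n) F) := by
  constructor
  · intro h
    show ct (g : Matrix (Fin n) (Fin n) F) * g = 1
    ext b a
    have e := h (Pi.single a 1) (Pi.single b 1)
    rw [Units.coeHom_apply, hermForm_mulVec hF] at e
    simp only [Pi.single_apply, ite_mul, one_mul, zero_mul, ite_pow, one_pow, zero_pow two_ne_zero,
      mul_ite, mul_one, mul_zero, Finset.sum_ite_eq', Finset.mem_univ, if_true, Cfsg.hermForm] at e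
    rw [e, Matrix.one_apply]
  · intro h u v
    rw [Units.coeHom_apply, hermForm_mulVec hF, show ct (g : Matrix (Fin n) (Fin n) F) * g = 1 from h]
    simp [Matrix.one_apply, Cfsg.hermForm]

lemma uni_of_similarity (hF : Four ω) [NeZero n] {g : GL (Fin n) F}
    (hg : g ∈ similarityGroup (Cfsg.hermForm n F 2)) : Uni (g : Matrix (Fin n) (Fin n) F) := by
  obtain ⟨c, hc⟩ := hg
  have h : ct (g : Matrix (Fin n) (Fin n) F) * g = (c : F) • 1 := by
    ext b a
    have e := hc (Pi.single a 1) (Pi.single b 1)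
    rw [hermForm_mulVec hF] at e
    simp only [Pi.single_apply, ite_mul, one_mul, zero_mul, ite_pow, one_pow, zero_pow two_ne_zero,
      mul_ite, mul_one, mul_zero, Finset.sum_ite_eq', Finset.mem_univ, if_true, Cfsg.hermForm] at e
    rw [e, Matrix.smul_apply, Matrix.one_apply, smul_eq_mul]
    by_cases h : a = b <;> simp [h, eq_comm]
  have h2 : (c : F) ^ 2 = c := by
    have e := congrArg ct h
    rw [ct_mul hF, ct_ct hF, h, ct_smul, ct_one] at e
    have := congrFun (congrFun e (0 : Fin n)) (0 : Fin n)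
    simpa using this.symm
  have h1 : (c : F) = 1 := mul_left_cancel₀ c.ne_zero (by rw [mul_one, ← pow_two, h2])
  rw [h1, one_smul] at h
  exact h

end Sim

/-- Normalisers of groups of symplectic type of order `3^5` are maximal in `SU₉(2)`. -/
theorem suGL_symplecticType_three_two {F : Type*} [Field F] [Fintype F]
    (hcard : Fintype.card F = 4)
    (hcore : ∀ ω : F, Four ω → ∀ M : Matrix I9 I9 F → Prop, Ov ω M → NoTv M →
      ∀ A, M A → Nrm9 ω A)
    (R : Subgroup (GL (Fin 9) F)) (hst : IsSymplecticTypeGroup 3 R)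
    (hirr : ActsAbsolutelyIrreducibly (matrixSet R))
    (hsim : R ≤ similarityGroup (Cfsg.hermForm 9 F 2)) (hR : Nat.card R = 243)
    (hZ : Nat.card (Subgroup.center R) = 3) :
    IsMaximalIn (Cfsg.GU 9 F 2 ⊓ specialLinear (Fin 9) F)
      (subgroupNormalizer R ⊓ (Cfsg.GU 9 F 2 ⊓ specialLinear (Fin 9) F)) := by
  classical
  obtain ⟨ω, hRD, hF⟩ := rdata_of_group hcard hst hirr hR hZ
  have hω := hF.om
  obtain ⟨P, W, hWP, hPW, hPR⟩ := exists_coord_matrix hRD
  have bf : ∀ A : Matrix I9 I9 F, W * (P * A * W) * P = A := fun A => by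
    rw [show W * (P * A * W) * P = (W * P) * A * (W * P) by simp only [Matrix.mul_assoc], hWP,
      Matrix.one_mul, Matrix.mul_one]
  -- the units with given coordinates
  let up : ∀ A B : Matrix I9 I9 F, A * B = 1 → GL (Fin 9) F := fun A B h =>
    ⟨P * A * W, P * B * W,
      by rw [show P * A * W * (P * B * W) = P * (A * ((W * P) * B)) * W by simp only [Matrix.mul_assoc],
          hWP, Matrix.one_mul, h, Matrix.mul_one, hPW],
      by rw [show P * B * W * (P * A * W) = P * (B * ((W * P) * A)) * W by simp only [Matrix.mul_assoc],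
          hWP, Matrix.one_mul, mul_eq_one_comm.1 h, Matrix.mul_one, hPW]⟩
  -- the weight operators come from `R`
  have hP9 : ∀ v : W9, ∃ g ∈ R, W * (g : Matrix (Fin 9) (Fin 9) F) * P = P9 ω v := by
    intro v
    obtain ⟨B, hB⟩ := (isUnit_P9 hω v).exists_right_inv
    exact ⟨up _ B hB, (hPR _).2 ⟨0, v, by rw [wp_zero, one_smul]; exact bf _⟩, bf _⟩
  -- the change of coordinates is an isometry
  have hH : ct P * P = 1 := by
    set H := ct P * P with hHd
    have hcomm : ∀ s ∈ matrixSet R, P * H * W * s = s * (P * H * W) := by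
      rintro _ ⟨g, hg, rfl⟩
      obtain ⟨t, v, e⟩ := (hPR g).1 hg
      set X := W * (g : Matrix (Fin 9) (Fin 9) F) * P with hX
      have hXu : Uni X := by
        rw [e]
        show ct (wp ω t • P9 ω v) * (wp ω t • P9 ω v) = 1
        rw [ct_smul, Matrix.smul_mul, Matrix.mul_smul, smul_smul,
          show ct (P9 ω v) * P9 ω v = 1 from P9_uni hF v, ← pow_succ,
          hF.cube (hω.wp_ne_zero _), one_smul]
      have hXH : ct X * H * X = H := by
        have hgu : ct (g : Matrix (Fin 9) (Fin 9) F) * (g : Matrix (Fin 9) (Fin 9) F) = 1 := uni_of_similarity hF (hsim hg)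
        rw [hX, ct_mul hF, ct_mul hF, hHd]
        calc ct P * (ct (g : Matrix (Fin 9) (Fin 9) F) * ct W) * (ct P * P) *
              (W * (g : Matrix (Fin 9) (Fin 9) F) * P)
            = ct P * ct (g : Matrix (Fin 9) (Fin 9) F) * (ct W * ct P) * (P * W) *
                (g : Matrix (Fin 9) (Fin 9) F) * P := by simp only [Matrix.mul_assoc]
          _ = ct P * (ct (g : Matrix (Fin 9) (Fin 9) F) * (g : Matrix (Fin 9) (Fin 9) F)) * P := by
              rw [show ct W * ct P = 1 by rw [← ct_mul hF, hPW, ct_one], hPW, Matrix.mul_one,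
                Matrix.mul_one]
              simp only [Matrix.mul_assoc]
          _ = ct P * P := by rw [hgu, Matrix.mul_one]
      have hHX : H * X = X * H := by
        calc H * X = (X * ct X) * (H * X) := by rw [hXu.mul_ct, Matrix.one_mul]
          _ = X * (ct X * H * X) := by simp only [Matrix.mul_assoc]
          _ = X * H := by rw [hXH]
      show P * H * W * (g : Matrix (Fin 9) (Fin 9) F) = (g : Matrix (Fin 9) (Fin 9) F) * (P * H * W)
      calc P * H * W * (g : Matrix (Fin 9) (Fin 9) F)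
          = P * (H * X) * W := by
            rw [hX]; simp only [Matrix.mul_assoc, hPW, Matrix.mul_one]
        _ = (g : Matrix (Fin 9) (Fin 9) F) * (P * H * W) := by
            rw [hHX, hX]; simp only [← Matrix.mul_assoc, hPW, Matrix.one_mul]
    obtain ⟨l, hl⟩ := hirr.2 _ hcomm
    have hHl : H = l • 1 := by
      rw [← bf H, hl, Matrix.mul_smul, Matrix.mul_one, Matrix.smul_mul, hWP]
    have hl2 : l ^ 2 = l := by
      have := congrArg (fun X : Matrix I9 I9 F => ct X 0 0) hHl
      simp only [hHd, ct_mul hF, ct_ct hF] at this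
      rw [← hHd, hHl, ct_smul, ct_one] at this
      simpa using this.symm
    have hl0 : l ≠ 0 := by
      rintro rfl
      rw [zero_smul] at hHl
      have hWW : ct W * ct P * P * W = 1 := by
        rw [← ct_mul hF, hPW, ct_one, Matrix.one_mul, hPW]
      rw [show ct W * ct P * P * W = ct W * H * W by rw [hHd]; simp only [Matrix.mul_assoc], hHl,
        Matrix.mul_zero, Matrix.zero_mul] at hWW
      exact zero_ne_one (congrFun (congrFun hWW 0) 0)
    rw [hHl, mul_left_cancel₀ hl0 (by rw [mul_one, ← pow_two, hl2] : l * l = l * 1), one_smul]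
  have hctP : ct P = W := by
    calc ct P = ct P * (P * W) := by rw [hPW, Matrix.mul_one]
      _ = W := by rw [← Matrix.mul_assoc, hH, Matrix.one_mul]
  have hctW : ct W = P := by rw [← hctP, ct_ct hF]
  -- transfer of unitarity and determinant
  have huni : ∀ g : GL (Fin 9) F,
      g ∈ Cfsg.GU 9 F 2 ↔ Uni (W * (g : Matrix (Fin 9) (Fin 9) F) * P) := by
    intro g
    rw [mem_GU_iff hF]
    have e : ct (W * (g : Matrix (Fin 9) (Fin 9) F) * P) * (W * (g : Matrix (Fin 9) (Fin 9) F) * P)
        = W * (ct (g : Matrix (Fin 9) (Fin 9) F) * (g : Matrix (Fin 9) (Fin 9) F)) * P := by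
      rw [ct_mul hF, ct_mul hF, hctP, hctW]
      simp only [Matrix.mul_assoc]
      rw [← Matrix.mul_assoc P W, hPW, Matrix.one_mul]
    constructor
    · intro h
      show ct _ * _ = 1
      rw [e, show ct (g : Matrix (Fin 9) (Fin 9) F) * (g : Matrix (Fin 9) (Fin 9) F) = 1 from h, Matrix.mul_one, hWP]
    · intro h
      have h' : W * (ct (g : Matrix (Fin 9) (Fin 9) F) * (g : Matrix (Fin 9) (Fin 9) F)) * P = 1 := e.symm.trans h
      show ct _ * _ = 1
      calc ct (g : Matrix (Fin 9) (Fin 9) F) * (g : Matrix (Fin 9) (Fin 9) F)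
          = (P * W) * (ct (g : Matrix (Fin 9) (Fin 9) F) * (g : Matrix (Fin 9) (Fin 9) F)) * (P * W) := by
            rw [hPW, Matrix.one_mul, Matrix.mul_one]
        _ = P * (W * (ct (g : Matrix (Fin 9) (Fin 9) F) * (g : Matrix (Fin 9) (Fin 9) F)) * P) * W := by
            simp only [Matrix.mul_assoc]
        _ = 1 := by rw [h', Matrix.mul_one, hPW]
  let e9 : I9 ≃ Fin 9 := Fintype.equivFinOfCardEq (by simp [Fintype.card_prod])
  have hdet : ∀ X : Matrix (Fin 9) (Fin 9) F, Matrix.det (W * X * P) = Matrix.det X := by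
    intro X
    set P' : Matrix (Fin 9) (Fin 9) F := P.submatrix id e9.symm with hP'
    set W' : Matrix (Fin 9) (Fin 9) F := W.submatrix e9.symm id with hW'
    have h1 : P' * W' = 1 := by
      rw [hP', hW', Matrix.submatrix_mul_equiv, hPW, Matrix.submatrix_id_id]
    have e : (W * X * P).submatrix e9.symm e9.symm = W' * X * P' := by
      ext i k
      simp [hW', hP', Matrix.mul_apply]
    rw [← Matrix.det_submatrix_equiv_self e9.symm, e, Matrix.det_mul, Matrix.det_mul, mul_comm,
      ← mul_assoc, ← Matrix.det_mul, h1, Matrix.det_one, one_mul]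
  have hSL : ∀ g : GL (Fin 9) F, g ∈ specialLinear (Fin 9) F ↔
      Matrix.det (W * (g : Matrix (Fin 9) (Fin 9) F) * P) = 1 := fun g => by
    rw [hdet]; exact GeoClasses.mem_specialLinear_iff
  have fmul : ∀ g h : GL (Fin 9) F, W * ((g * h : GL (Fin 9) F) : Matrix (Fin 9) (Fin 9) F) * P =
      (W * (g : Matrix (Fin 9) (Fin 9) F) * P) * (W * (h : Matrix (Fin 9) (Fin 9) F) * P) := by
    intro g h
    rw [Units.val_mul]
    simp only [Matrix.mul_assoc]
    rw [← Matrix.mul_assoc P W, hPW, Matrix.one_mul]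
  have finj : ∀ g h : GL (Fin 9) F, W * (g : Matrix (Fin 9) (Fin 9) F) * P =
      W * (h : Matrix (Fin 9) (Fin 9) F) * P → g = h := by
    intro g h e
    refine Units.ext ?_
    calc (g : Matrix (Fin 9) (Fin 9) F) = P * (W * (g : Matrix (Fin 9) (Fin 9) F) * P) * W := by
          rw [show P * (W * (g : Matrix (Fin 9) (Fin 9) F) * P) * W = (P * W) * (g : Matrix (Fin 9) (Fin 9) F) * (P * W) by
            simp only [Matrix.mul_assoc], hPW, Matrix.one_mul, Matrix.mul_one]
      _ = (h : Matrix (Fin 9) (Fin 9) F) := by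
          rw [e, show P * (W * (h : Matrix (Fin 9) (Fin 9) F) * P) * W = (P * W) * (h : Matrix (Fin 9) (Fin 9) F) * (P * W) by
            simp only [Matrix.mul_assoc], hPW, Matrix.one_mul, Matrix.mul_one]
  have hnorm : ∀ g : GL (Fin 9) F,
      g ∈ subgroupNormalizer R ↔ Nrm9 ω (W * (g : Matrix (Fin 9) (Fin 9) F) * P) := by
    intro g
    constructor
    · intro hg v
      obtain ⟨h, hh, eh⟩ := hP9 v
      have hmem : g * h * g⁻¹ ∈ R := (Subgroup.mem_normalizer_iff.1 hg h).1 hh
      obtain ⟨t, w, e⟩ := (hPR _).1 hmem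
      refine ⟨w, wp ω t, hω.wp_ne_zero _, ?_⟩
      rw [← eh, ← fmul, show g * h = g * h * g⁻¹ * g by group, fmul, e, Matrix.smul_mul]
    · intro hg
      refine Subgroup.mem_normalizer_fintype fun x hx => ?_
      obtain ⟨t, v, e⟩ := (hPR x).1 hx
      obtain ⟨w, c, -, ew⟩ := hg v
      have hu : IsUnit (W * (g : Matrix (Fin 9) (Fin 9) F) * P) :=
        IsUnit.of_mul_eq_one (W * ((g⁻¹ : GL (Fin 9) F) : Matrix (Fin 9) (Fin 9) F) * P) (by
          rw [← fmul, mul_inv_cancel, Units.val_one, Matrix.mul_one, hWP])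
      obtain ⟨t', rfl⟩ := hω.exists_wp (conj_cube9 hω hu ew)
      refine (hPR _).2 ⟨t + t', w, ?_⟩
      rw [fmul, fmul, e, Matrix.mul_smul, ew, smul_smul, ← hω.wp_add, Matrix.smul_mul,
        Matrix.mul_assoc, ← fmul, mul_inv_cancel, Units.val_one, Matrix.mul_one, hWP, Matrix.mul_one]
  have hmem : ∀ (A : Matrix I9 I9 F), Uni A → Matrix.det A = 1 → ∀ g : GL (Fin 9) F,
      W * (g : Matrix (Fin 9) (Fin 9) F) * P = A →
      g ∈ Cfsg.GU 9 F 2 ⊓ specialLinear (Fin 9) F := fun A h1 h2 g e =>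
    ⟨(huni g).2 (e.symm ▸ h1), (hSL g).2 (e.symm ▸ h2)⟩
  refine ⟨lt_of_le_not_ge inf_le_right fun hle => ?_, fun M hM hMS => ?_⟩
  · -- a transposition of two coordinates does not normalise the weight lines
    let σ : I9 ≃ I9 := Equiv.swap (0, 0) (0, 1)
    let g := up (perM σ) (ct (perM σ)) (perM_uni σ).mul_ct
    have hg := (hle (hmem _ (perM_uni σ) (perM_det hF σ) g (bf _))).1
    obtain ⟨w, c, hc, e⟩ := (hnorm g).1 hg ((0, 1), (0, 0))
    rw [bf] at e
    have key : ∀ x z : I9, P9 ω ((0, 1), (0, 0)) (σ.symm x) z = c * P9 ω w x (σ z) := by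
      intro x z
      have := congrFun (congrFun e x) z
      rw [Matrix.smul_apply, smul_eq_mul, Matrix.mul_apply, Matrix.mul_apply,
        Finset.sum_eq_single (σ.symm x), Finset.sum_eq_single (σ z)] at this
      · simpa [perM] using this
      · intro b _ hb; simp [perM, hb]
      · simp
      · intro b _ hb
        simp only [perM, Matrix.of_apply]
        rw [if_neg (fun h => hb (by rw [h, Equiv.symm_apply_apply])), zero_mul]
      · simp
    have hz : ∀ x z : I9, P9 ω ((0, 1), (0, 0)) (σ.symm x) z ≠ 0 →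
        x = σ z + (w.1.2, w.2.2) := by
      intro x z h
      rw [key] at h
      have h' := right_ne_zero_of_mul h
      simp only [P9, Matrix.kroneckerMap_apply, P3_apply] at h'
      by_cases h1 : x.1 = (σ z).1 + w.1.2
      · by_cases h2 : x.2 = (σ z).2 + w.2.2
        · exact Prod.ext h1 h2
        · simp [h2] at h'
      · simp [h1] at h'
    have k0 : ∀ x z : I9, x.1 = z.1 + 1 → x.2 = z.2 → P9 ω ((0, 1), (0, 0)) x z ≠ 0 := by
      intro x z h1 h2
      simp [P9, P3_apply, h1, h2]
    have k1 := hz (1, 0) (0, 0) (k0 _ _ (by decide) (by decide))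
    have k2 := hz (2, 0) (1, 0) (k0 _ _ (by decide) (by decide))
    have : ∀ b : I9, (1, 0) = σ (0, 0) + b → (2, 0) = σ (1, 0) + b → False := by decide
    exact this _ k1 k2
  let M' : Matrix I9 I9 F → Prop := fun A => ∃ g ∈ M, W * (g : Matrix (Fin 9) (Fin 9) F) * P = A
  have hOv : Ov ω M' :=
    { one := ⟨1, one_mem M, by rw [Units.val_one, Matrix.mul_one, hWP]⟩
      mul := by
        rintro A B ⟨g, hg, rfl⟩ ⟨h, hh, rfl⟩
        exact ⟨g * h, mul_mem hg hh, fmul g h⟩
      star := by
        rintro A ⟨g, hg, rfl⟩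
        refine ⟨g⁻¹, inv_mem hg, ?_⟩
        have hu := (huni g).1 (hMS hg).1
        calc W * ((g⁻¹ : GL (Fin 9) F) : Matrix (Fin 9) (Fin 9) F) * P
            = ct (W * (g : Matrix (Fin 9) (Fin 9) F) * P) * ((W * (g : Matrix (Fin 9) (Fin 9) F) * P) *
                (W * ((g⁻¹ : GL (Fin 9) F) : Matrix (Fin 9) (Fin 9) F) * P)) := by
              rw [← Matrix.mul_assoc, hu, Matrix.one_mul]
          _ = _ := by rw [← fmul, mul_inv_cancel, Units.val_one, Matrix.mul_one, hWP, Matrix.mul_one]
      uni := by rintro A ⟨g, hg, rfl⟩; exact (huni g).1 (hMS hg).1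
      det := by rintro A ⟨g, hg, rfl⟩; exact (hSL g).1 (hMS hg).2
      nrm := fun A h1 h2 h3 =>
        ⟨up A (ct A) h1.mul_ct, hM ⟨(hnorm _).2 (by rw [bf]; exact h3), hmem A h1 h2 _ (bf _)⟩,
          bf _⟩ }
  by_cases hns : NoTv M'
  · left
    exact le_antisymm (fun g hg => ⟨(hnorm g).2 (hcore ω hF M' hOv hns _ ⟨g, hg, rfl⟩), hMS hg⟩) hM
  · right
    simp only [NoTv, not_forall, not_not] at hns
    obtain ⟨u, hu, hiso, hmem'⟩ := hns
    refine le_antisymm hMS fun g hg => ?_
    obtain ⟨h, hh, e⟩ := full_of_tv hF hOv hu hiso hmem' _ ((huni g).1 hg.1) ((hSL g).1 hg.2)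
    rwa [finj h g e] at hh

end Cfsg.Agent.CSixNineTwo
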