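import Cfsg.Agent.CSixNineTwo.Main
import Cfsg.Agent.CSixNineTwo.Maximal

/-!
Normalisers of groups of symplectic type of order `3^5` are maximal in `SU₉(2)`.
-/

set_option autoImplicit false

namespace Cfsg.Agent.CSixNineTwo

open Cfsg.Geo

theorem suGL_symplecticType_three_maximal_two {F : Type*} [Field F] [Fintype F] (q : ℕ)
    (hF : Fintype.card F = q ^ 2) (hq : q = 2)
    (R : Subgroup (Matrix.GeneralLinearGroup (Fin 9) F)) (hst : IsSymplecticTypeGroup 3 R)
    (hirr : ActsAbsolutelyIrreducibly (matrixSet R))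
    (hsim : R ≤ similarityGroup (Cfsg.hermForm 9 F q)) (hR : Nat.card R = 243)
    (hZ : Nat.card (Subgroup.center R) = 3) :
    IsMaximalIn (Cfsg.GU 9 F q ⊓ specialLinear (Fin 9) F)
      (subgroupNormalizer R ⊓ (Cfsg.GU 9 F q ⊓ specialLinear (Fin 9) F)) := by
  subst hq
  exact suGL_symplecticType_three_two (by rw [hF]; norm_num)
    (fun _ hω _ hM hns _ hA => nrm_of_noTv hω hM hns hA) R hst hirr hsim hR hZ

end Cfsg.Agent.CSixNineTwo
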