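import Cfsg.Agent.CSixNineTwo.Basic

/-!
Generation of small unitary groups over the field of four elements by monomial matrices and
reflections, and their invariant sets of hermitian matrices.
-/

set_option autoImplicit false
set_option linter.unusedSectionVars false

namespace Cfsg.Agent.CSixNineTwo

open Matrix Cfsg.Agent.CSixNine

variable {F : Type*} [Field F]

section Unitary

variable {ι : Type*} [Fintype ι] [DecidableEq ι] {ω : F}

lemma refl3_mulVec (a b c : ι) (v : ι → F) (i : ι) (hab : a ≠ b) (hac : a ≠ c) (hbc : b ≠ c) :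
    (refl3 ω a b c *ᵥ v) i =
      v i + if i = a ∨ i = b ∨ i = c then ω ^ 2 * (v a + v b + v c) else 0 := by
  classical
  simp only [Matrix.mulVec, dotProduct, refl3, Matrix.of_apply, add_mul, Finset.sum_add_distrib]
  congr 1
  · simp
  by_cases hi : i = a ∨ i = b ∨ i = c
  · rw [if_pos hi]
    have : ∀ k, (if (i = a ∨ i = b ∨ i = c) ∧ (k = a ∨ k = b ∨ k = c) then ω ^ 2 else 0) * v k =
        if k ∈ ({a, b, c} : Finset ι) then ω ^ 2 * v k else 0 := fun k => by
      by_cases hk : k = a ∨ k = b ∨ k = c
      · rw [if_pos ⟨hi, hk⟩, if_pos (by simpa using hk)]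
      · rw [if_neg (fun h => hk h.2), if_neg (by simpa using hk), zero_mul]
    simp only [this]
    rw [Finset.sum_ite_mem, Finset.univ_inter, Finset.sum_insert (by simp [hab, hac]),
      Finset.sum_insert (by simp [hbc]), Finset.sum_singleton]
    ring
  · rw [if_neg hi]
    refine Finset.sum_eq_zero fun k _ => ?_
    rw [if_neg (fun h => hi h.1), zero_mul]

/-- The projection on three coordinates with all entries one. -/
def ones3 (a b c : ι) : Matrix ι ι F :=
  Matrix.of fun i k => if (i = a ∨ i = b ∨ i = c) ∧ (k = a ∨ k = b ∨ k = c) then 1 else 0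

lemma refl3_eq (a b c : ι) : refl3 ω a b c = 1 + ω ^ 2 • ones3 a b c := by
  ext i k
  simp only [refl3, ones3, Matrix.add_apply, Matrix.smul_apply, Matrix.of_apply, Matrix.one_apply,
    smul_eq_mul, mul_ite, mul_one, mul_zero]

lemma ones3_mul (hF : Four ω) {a b c : ι} (hab : a ≠ b) (hac : a ≠ c) (hbc : b ≠ c) :
    (ones3 a b c : Matrix ι ι F) * ones3 a b c = ones3 a b c := by
  classical
  ext i k
  rw [Matrix.mul_apply, ← Finset.sum_subset (Finset.subset_univ ({a, b, c} : Finset ι))]
  · rw [Finset.sum_insert (by simp [hab, hac]), Finset.sum_insert (by simp [hbc]),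
      Finset.sum_singleton]
    simp only [ones3, Matrix.of_apply, true_or, or_true, true_and, and_true]
    split_ifs <;> simp_all
    linear_combination hF.two
  · intro j _ hj
    simp only [Finset.mem_insert, Finset.mem_singleton] at hj
    simp [ones3, hj]

lemma ct_refl3 (hF : Four ω) (a b c : ι) :
    ct (refl3 ω a b c) = 1 + ω • ones3 a b c := by
  rw [refl3_eq, ct_add hF, ct_one, ct_smul]
  congr 1
  rw [show (ω ^ 2) ^ 2 = ω by linear_combination ω * hF.om.cube]
  ext i k
  simp only [ct_apply, ones3, Matrix.smul_apply, Matrix.of_apply, and_comm (a := k = a ∨ k = b ∨ k = c)]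
  split_ifs <;> simp

lemma refl3_sq (hF : Four ω) {a b c : ι} (hab : a ≠ b) (hac : a ≠ c) (hbc : b ≠ c) :
    refl3 ω a b c * refl3 ω a b c = ct (refl3 ω a b c) := by
  rw [ct_refl3 hF, refl3_eq]
  simp only [add_mul, mul_add, one_mul, mul_one, smul_mul_assoc, mul_smul_comm,
    ones3_mul hF hab hac hbc, smul_smul]
  match_scalars
  · ring
  · linear_combination ω ^ 2 * hF.two + ω * hF.om.cube

lemma refl3_uni (hF : Four ω) {a b c : ι} (hab : a ≠ b) (hac : a ≠ c) (hbc : b ≠ c) :
    Uni (refl3 ω a b c) := by
  show ct (refl3 ω a b c) * refl3 ω a b c = 1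
  rw [ct_refl3 hF, refl3_eq]
  simp only [add_mul, mul_add, one_mul, mul_one, smul_mul_assoc, mul_smul_comm,
    ones3_mul hF hab hac hbc, smul_smul]
  match_scalars
  · ring
  · linear_combination hF.om.cube + hF.om.eqn

open _root_.Classical in
lemma Uni.norm_col (hF : Four ω) {A : Matrix ι ι F} (hA : Uni A) (k : ι) :
    ((Finset.univ.filter fun i => A i k ≠ 0).card : F) = 1 := by
  classical
  have h := congrFun (congrFun hA k) k
  rw [Matrix.mul_apply, Matrix.one_apply_eq] at h
  rw [← h, ← Finset.sum_boole]
  refine Finset.sum_congr rfl fun i _ => ?_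
  by_cases h0 : A i k = 0
  · simp [ct_apply, h0]
  · rw [if_pos h0, ct_apply, ← pow_succ, hF.cube h0]

lemma Uni.support (hF : Four ω) (hcard : Fintype.card ι ≤ 4) {A : Matrix ι ι F} (hA : Uni A) (k : ι) :
    (∃ a, ∀ i, A i k ≠ 0 ↔ i = a) ∨
      ∃ a b c, a ≠ b ∧ a ≠ c ∧ b ≠ c ∧ ∀ i, A i k ≠ 0 ↔ (i = a ∨ i = b ∨ i = c) := by
  classical
  obtain ⟨s, hs⟩ : ∃ s, s = Finset.univ.filter fun i => A i k ≠ 0 := ⟨_, rfl⟩
  have h1 : (s.card : F) = 1 := hs ▸ hA.norm_col hF k
  have hle : s.card ≤ 4 := le_trans (Finset.card_le_univ _) hcard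
  have hmem : ∀ i, A i k ≠ 0 ↔ i ∈ s := fun i => by simp [hs]
  have hodd : s.card = 1 ∨ s.card = 3 := by
    interval_cases hn : s.card <;> (try norm_num at h1) <;> (try norm_num)
    all_goals
      first
      | exact zero_ne_one (hF.two.symm.trans h1)
      | exact zero_ne_one ((show (0 : F) = 4 by linear_combination (-2 : F) * hF.two).trans h1)
  rcases hodd with h | h
  · obtain ⟨a, ha⟩ := Finset.card_eq_one.1 h
    exact Or.inl ⟨a, fun i => by rw [hmem, ha, Finset.mem_singleton]⟩
  · obtain ⟨a, b, c, hab, hac, hbc, habc⟩ := Finset.card_eq_three.1 h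
    exact Or.inr ⟨a, b, c, hab, hac, hbc, fun i => by rw [hmem, habc]; simp⟩

lemma hcol' {W B : Matrix ι ι F} {i l : ι} : (W * B) i l = (W *ᵥ fun j => B j l) i := by
  simp [Matrix.mul_apply, Matrix.mulVec, dotProduct]

/-- Unitary matrices are generated by monomial ones and reflections. -/
theorem gen_unitary (hF : Four ω) (hcard : Fintype.card ι ≤ 4) {G : Matrix ι ι F → Prop}
    (hmul : ∀ A B, G A → G B → G (A * B))
    (hdiag : ∀ d : ι → F, (∀ i, d i ≠ 0) → G (Matrix.diagonal d))
    (hswp : ∀ a b : ι, a ≠ b → G (swp a b))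
    (hrefl : ∀ a b c : ι, a ≠ b → a ≠ c → b ≠ c → G (refl3 ω a b c))
    {A : Matrix ι ι F} (hA : Uni A) : G A := by
  classical
  have hω0 := hF.om.ne_zero
  -- inverse generators
  have hdu : ∀ d : ι → F, (∀ i, d i ≠ 0) → Uni (Matrix.diagonal d) := fun d hd => by
    show ct (Matrix.diagonal d) * Matrix.diagonal d = 1
    ext i k
    by_cases h : i = k
    · subst h
      simp [Matrix.mul_diagonal, ct_apply, ← pow_succ, hF.cube (hd i)]
    · simp [Matrix.mul_diagonal, ct_apply, h, Ne.symm h]
  have hswu : ∀ a b : ι, Uni (swp a b : Matrix ι ι F) := fun a b => by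
    show ct (swp a b) * swp a b = 1
    ext i k
    rw [Matrix.mul_apply]
    simp only [ct_apply, swp, Matrix.of_apply, mul_ite, mul_one, mul_zero, Finset.sum_ite_eq',
      Finset.mem_univ, if_true, (Equiv.swap a b).injective.eq_iff, Matrix.one_apply]
    by_cases h : k = i
    · subst h; simp
    · simp [h, Ne.symm h]
  have hru : ∀ a b c : ι, a ≠ b → a ≠ c → b ≠ c → Uni (refl3 ω a b c) :=
    fun a b c hab hac hbc => refl3_uni hF hab hac hbc
  -- the induction
  suffices h : ∀ n : ℕ, ∀ B : Matrix ι ι F, Uni B →
      (Finset.univ.filter fun k => ¬ ∀ i, B i k = if i = k then 1 else 0).card ≤ n → G B from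
    h _ A hA le_rfl
  intro n
  induction n with
  | zero =>
    intro B _ hB
    have : B = Matrix.diagonal fun _ => 1 := by
      ext i k
      have hk : k ∉ Finset.univ.filter fun k => ¬ ∀ i, B i k = if i = k then 1 else 0 := by
        rw [Finset.card_eq_zero.1 (Nat.le_zero.1 hB)]; simp
      simp only [Finset.mem_filter, Finset.mem_univ, true_and, not_not] at hk
      rw [hk i, Matrix.diagonal_apply]
    rw [this]
    exact hdiag _ fun _ => one_ne_zero
  | succ n ih =>
    intro B hB hn
    by_cases hle : (Finset.univ.filter fun k => ¬ ∀ i, B i k = if i = k then 1 else 0).card ≤ n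
    · exact ih B hB hle
    obtain ⟨k, hk⟩ := Finset.card_pos.1 (Nat.lt_of_le_of_lt (Nat.zero_le _) (not_le.1 hle))
    -- fixed coordinates are not in the support
    have hout : ∀ l, (∀ i, B i l = if i = l then 1 else 0) → l ≠ k → B l k = 0 := by
      intro l hl hlk
      have h := congrFun (congrFun hB l) k
      rw [Matrix.one_apply_ne hlk, Matrix.mul_apply, Finset.sum_eq_single l] at h
      · simpa [ct_apply, hl l] using h
      · intro b _ hb; simp [ct_apply, hl b, hb]
      · simp
    -- some product of generators sends the column to `e_k` and fixes the fixed coordinates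
    suffices hW : ∃ W W' : Matrix ι ι F, G W' ∧ Uni W ∧ W' * W = 1 ∧
        (∀ i, (W * B) i k = if i = k then 1 else 0) ∧
        ∀ l, (∀ i, B i l = if i = l then 1 else 0) → ∀ i, (W * B) i l = if i = l then 1 else 0 by
      obtain ⟨W, W', hW', hWu, hWW, hWk, hWl⟩ := hW
      have hG : G (W * B) := by
        refine ih _ (hWu.mul hF hB) ?_
        have hss : (Finset.univ.filter fun l => ¬ ∀ i, (W * B) i l = if i = l then 1 else 0) ⊂
            Finset.univ.filter fun l => ¬ ∀ i, B i l = if i = l then 1 else 0 := by
          refine (Finset.ssubset_iff_of_subset fun l hl => ?_).2 ⟨k, hk, fun h => ?_⟩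
          · simp only [Finset.mem_filter, Finset.mem_univ, true_and] at hl ⊢
            exact fun h => hl (hWl l h)
          · simp only [Finset.mem_filter, Finset.mem_univ, true_and] at h
            exact h hWk
        have := Finset.card_lt_card hss
        omega
      have := hmul _ _ hW' hG
      rwa [← Matrix.mul_assoc, hWW, Matrix.one_mul] at this
    have hcol : ∀ W : Matrix ι ι F, ∀ i l, (W * B) i l = (W *ᵥ fun j => B j l) i := fun W i l => by
      simp [Matrix.mul_apply, Matrix.mulVec, dotProduct]
    -- monomial step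
    have hmono : ∀ a, a ≠ k → (∀ l, (∀ i, B i l = if i = l then 1 else 0) → l ≠ k → l ≠ a) →
        ∀ (v : ι → F), ∃ W W' : Matrix ι ι F, G W' ∧ Uni W ∧ W' * W = 1 ∧
          (∀ i, (W *ᵥ v) i = v (Equiv.swap a k i)) ∧
          ∀ l, (∀ i, B i l = if i = l then 1 else 0) → l ≠ k → ∀ i,
            (W * B) i l = if i = l then 1 else 0 := by
      intro a hak hsafe v
      refine ⟨swp a k, swp a k, hswp a k hak, hswu a k, ?_, fun i => ?_, fun l hl hlk i => ?_⟩
      · ext i l
        rw [Matrix.mul_apply]
        simp [swp, Matrix.one_apply, Equiv.swap_apply_self]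
      · simp only [Matrix.mulVec, dotProduct, swp, Matrix.of_apply, ite_mul, one_mul, zero_mul]
        rw [Finset.sum_eq_single (Equiv.swap a k i)]
        · simp
        · intro j _ hj
          rw [if_neg]
          exact fun h => hj (by rw [h, Equiv.swap_apply_self])
        · simp
      · rw [Matrix.mul_apply, Finset.sum_eq_single l]
        · have e : Equiv.swap a k l = l := Equiv.swap_apply_of_ne_of_ne (hsafe l hl hlk) hlk
          simp only [swp, Matrix.of_apply, hl l, if_true, mul_one, e]
        · intro j _ hj; simp [hl j, hj]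
        · simp
    have hk' : ¬ ∀ i, B i k = if i = k then 1 else 0 := by simpa using hk
    have hne : ∀ l, (∀ i, B i l = if i = l then 1 else 0) → l ≠ k := fun l hl e => hk' (e ▸ hl)
    rcases hB.support hF hcard k with ⟨a, ha⟩ | ⟨a, b, c, hab, hac, hbc, habc⟩
    · -- one nonzero entry
      have hav : B a k ≠ 0 := (ha a).2 rfl
      have hsafe : ∀ l, (∀ i, B i l = if i = l then 1 else 0) → l ≠ k → l ≠ a :=
        fun l hl hlk e => hav (e ▸ hout l hl hlk)
      let d : ι → F := fun i => if i = k then (B a k) ^ 2 else 1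
      have hd : ∀ i, d i ≠ 0 := fun i => by
        simp only [d]; split
        · exact pow_ne_zero _ hav
        · exact one_ne_zero
      let d' : ι → F := fun i => d i ^ 2
      have hdd : Matrix.diagonal d' * Matrix.diagonal d = (1 : Matrix ι ι F) := by
        rw [Matrix.diagonal_mul_diagonal, ← Matrix.diagonal_one]
        congr 1
        funext i
        simp only [d', ← pow_succ, hF.cube (hd i)]
      have hB0 : ∀ j, j ≠ a → B j k = 0 := fun j hj => by
        by_contra h; exact hj ((ha j).1 h)
      by_cases hak : a = k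
      · subst hak
        refine ⟨Matrix.diagonal d, _, hdiag d' (fun i => pow_ne_zero _ (hd i)), hdu d hd, hdd,
          fun i => ?_, fun l hl i => ?_⟩
        · rw [Matrix.diagonal_mul]
          by_cases hi : i = a
          · subst hi; simp only [d, if_true, ← pow_succ]; exact hF.cube hav
          · simp [d, hi, hB0 i hi]
        · rw [Matrix.diagonal_mul, hl i]
          by_cases hi : i = l
          · subst hi; simp [d, hne i hl]
          · simp [hi]
      · obtain ⟨W, W', hW', hWu, hWW, hWv, hWl⟩ := hmono a hak hsafe (fun j => B j k)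
        refine ⟨Matrix.diagonal d * W, W' * Matrix.diagonal d',
          hmul _ _ hW' (hdiag d' (fun i => pow_ne_zero _ (hd i))), (hdu d hd).mul hF hWu, ?_,
          fun i => ?_, fun l hl i => ?_⟩
        · rw [Matrix.mul_assoc, ← Matrix.mul_assoc (Matrix.diagonal d'), hdd, Matrix.one_mul, hWW]
        · rw [Matrix.mul_assoc, Matrix.diagonal_mul, hcol, hWv]
          by_cases hi : i = k
          · subst hi; simp only [d, if_true, Equiv.swap_apply_right, ← pow_succ]; exact hF.cube hav
          · have : Equiv.swap a k i ≠ a := fun h => hi (by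
              rw [← Equiv.swap_apply_self a k i, h, Equiv.swap_apply_left])
            simp [d, hi, hB0 _ this]
        · rw [Matrix.mul_assoc, Matrix.diagonal_mul, hWl l hl (hne l hl) i]
          by_cases hi : i = l
          · subst hi; simp [d, hne i hl]
          · simp [hi]
    · -- three nonzero entries
      obtain ⟨W₀, W₀', hW₀', hW₀u, hW₀W, v, hv, hvk, hW₀l⟩ : ∃ W W' : Matrix ι ι F, (W' = 1 ∨ G W') ∧
          Uni W ∧ W' * W = 1 ∧ ∃ v : ι → F, (∀ i, (W * B) i k = v i) ∧
            (∃ b' c' : ι, k ≠ b' ∧ k ≠ c' ∧ b' ≠ c' ∧ ∀ i, v i ≠ 0 ↔ (i = k ∨ i = b' ∨ i = c')) ∧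
            ∀ l, (∀ i, B i l = if i = l then 1 else 0) → ∀ i,
              (W * B) i l = if i = l then 1 else 0 := by
        by_cases hks : k = a ∨ k = b ∨ k = c
        · refine ⟨1, 1, Or.inl rfl, Uni.one, Matrix.one_mul _, fun i => B i k,
            fun i => by rw [Matrix.one_mul], ?_, fun l hl i => by rw [Matrix.one_mul]; exact hl i⟩
          rcases hks with rfl | rfl | rfl
          · exact ⟨b, c, hab, hac, hbc, habc⟩
          · exact ⟨a, c, hab.symm, hbc, hac, fun i => (habc i).trans (by tauto)⟩
          · exact ⟨a, b, hac.symm, hbc.symm, hab, fun i => (habc i).trans (by tauto)⟩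
        · push Not at hks
          have hsafe : ∀ l, (∀ i, B i l = if i = l then 1 else 0) → l ≠ k → l ≠ a :=
            fun l hl hlk e => (habc a).2 (Or.inl rfl) (e ▸ hout l hl hlk)
          obtain ⟨W, W', hW', hWu, hWW, hWv, hWl⟩ := hmono a (Ne.symm hks.1) hsafe (fun j => B j k)
          refine ⟨W, W', Or.inr hW', hWu, hWW, fun i => B (Equiv.swap a k i) k,
            fun i => by rw [hcol, hWv], ⟨b, c, hks.2.1, hks.2.2, hbc, fun i => ?_⟩,
            fun l hl => hWl l hl (hne l hl)⟩
          rw [habc, Equiv.swap_apply_def]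
          split_ifs with h1 h2
          · subst h1
            simp [hks.1, Ne.symm hks.1, hab, hac, hks.2.1, hks.2.2]
          · subst h2; simp
          · simp [h1, h2]
      obtain ⟨b', c', hkb, hkc, hbc', hsupp⟩ := hvk
      -- scale so that the reflection collapses it
      let d : ι → F := fun i => if i = k then ω ^ 2 * v i ^ 2 else
        if i = b' ∨ i = c' then ω * v i ^ 2 else 1
      have hd : ∀ i, d i ≠ 0 := fun i => by
        simp only [d]; split_ifs with h1 h2
        · exact mul_ne_zero (pow_ne_zero _ hω0) (pow_ne_zero _ ((hsupp i).2 (Or.inl h1)))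
        · exact mul_ne_zero hω0 (pow_ne_zero _ ((hsupp i).2 (Or.inr h2)))
        · exact one_ne_zero
      let d' : ι → F := fun i => d i ^ 2
      have hdd : Matrix.diagonal d' * Matrix.diagonal d = (1 : Matrix ι ι F) := by
        rw [Matrix.diagonal_mul_diagonal, ← Matrix.diagonal_one]
        congr 1
        funext i
        simp only [d', ← pow_succ, hF.cube (hd i)]
      have hR := hru k b' c' hkb hkc hbc'
      have hRR : refl3 ω k b' c' * refl3 ω k b' c' * refl3 ω k b' c' = 1 := by
        have hct : ct (refl3 ω k b' c') = refl3 ω k b' c' * refl3 ω k b' c' :=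
          (refl3_sq hF hkb hkc hbc').symm
        rw [← hct]; exact hR
      refine ⟨refl3 ω k b' c' * Matrix.diagonal d * W₀,
        W₀' * (Matrix.diagonal d' * (refl3 ω k b' c' * refl3 ω k b' c')), ?_,
        (hR.mul hF (hdu d hd)).mul hF hW₀u, ?_, fun i => ?_, fun l hl i => ?_⟩
      · have hg := hmul _ _ (hdiag d' fun i => pow_ne_zero _ (hd i))
          (hmul _ _ (hrefl k b' c' hkb hkc hbc') (hrefl k b' c' hkb hkc hbc'))
        rcases hW₀' with rfl | h
        · rwa [Matrix.one_mul]
        · exact hmul _ _ h hg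
      · simp only [Matrix.mul_assoc]
        rw [← Matrix.mul_assoc (refl3 ω k b' c') (refl3 ω k b' c'),
          ← Matrix.mul_assoc (refl3 ω k b' c' * refl3 ω k b' c'), hRR, Matrix.one_mul,
          ← Matrix.mul_assoc (Matrix.diagonal d'), hdd, Matrix.one_mul, hW₀W]
      · rw [Matrix.mul_assoc, Matrix.mul_assoc, hcol', refl3_mulVec _ _ _ _ _ hkb hkc hbc']
        simp only [Matrix.diagonal_mul, hv]
        have hval : ∀ j, j = k ∨ j = b' ∨ j = c' → v j ^ 2 * v j = 1 := fun j hj => by
          rw [← pow_succ]; exact hF.cube ((hsupp j).2 hj)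
        have e1 : d k * v k = ω ^ 2 := by
          simp only [d, if_true]; rw [mul_assoc, hval k (Or.inl rfl), mul_one]
        have e2 : d b' * v b' = ω := by
          simp only [d, hkb.symm, if_false, true_or, if_true]
          rw [mul_assoc, hval b' (by simp), mul_one]
        have e3 : d c' * v c' = ω := by
          simp only [d, hkc.symm, if_false, or_true, if_true]
          rw [mul_assoc, hval c' (by simp), mul_one]
        rw [e1, e2, e3]
        by_cases hi : i = k
        · subst hi
          rw [e1]; simp only [true_or, if_true]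
          linear_combination (ω + 2) * hF.om.cube + (ω ^ 2 + ω + 1) * hF.two - hF.om.eqn + 0 * hF.two
        by_cases hi' : i = b' ∨ i = c'
        · have e : d i * v i = ω := by rcases hi' with rfl | rfl <;> assumption
          rw [e]; simp only [hi', or_true, if_true, hi, if_false]
          linear_combination (ω + 2) * hF.om.cube + (1 + ω) * hF.two
        · have hv0 : v i = 0 := by
            by_contra h; exact ((hsupp i).1 h).elim hi hi'
          simp [hi, hi', hv0]
      · rw [Matrix.mul_assoc, Matrix.mul_assoc, hcol', refl3_mulVec _ _ _ _ _ hkb hkc hbc']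
        simp only [Matrix.diagonal_mul, hW₀l l hl]
        -- `l` lies outside the support
        have hl0 : ¬ (l = k ∨ l = b' ∨ l = c') := fun h => by
          have hvl : v l ≠ 0 := (hsupp l).2 h
          have hu := congrFun (congrFun (hW₀u.mul hF hB) l) k
          rw [Matrix.one_apply_ne (hne l hl), Matrix.mul_apply, Finset.sum_eq_single l] at hu
          · exact hvl (by simpa [ct_apply, hW₀l l hl l, hv] using hu)
          · intro j _ hj; simp [ct_apply, hW₀l l hl j, hj]
          · simp
        push Not at hl0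
        by_cases hi : i = l
        · subst hi; simp [d, hl0.1, hl0.2.1, hl0.2.2]
        · simp [hi, hl0.1.symm, hl0.2.1.symm, hl0.2.2.symm]

end Unitary

end Cfsg.Agent.CSixNineTwo
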