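import Cfsg.Agent.CSixNineTwo.Herm

/-!
Realisation of the unitary group on the image of the sign change inside the weight normaliser.
-/

set_option autoImplicit false
set_option linter.unusedSectionVars false

namespace Cfsg.Agent.CSixNineTwo

open Matrix Cfsg.Agent.CSixNine
open scoped Matrix Kronecker

variable {F : Type*} [Field F] {ω : F}

/-- Matrices induced on the image of the sign change by weight normalisers. -/
def RealJ (ω : F) (g : Matrix (Fin 4) (Fin 4) F) : Prop :=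
  ∃ h : Matrix I9 I9 F, Uni h ∧ Matrix.det h = 1 ∧ Nrm9 ω h ∧ h * (jNine : Matrix I9 I9 F) = jNine * h ∧ al eJ h = g

lemma nrm3_mul {A B : Matrix K3 K3 F} (hA : Nrm3 ω A) (hB : Nrm3 ω B) : Nrm3 ω (A * B) := by
  intro v
  obtain ⟨w, c, hc, e⟩ := hB v
  obtain ⟨u, d, hd, e'⟩ := hA w
  refine ⟨u, c * d, mul_ne_zero hc hd, ?_⟩
  rw [Matrix.mul_assoc, e, Matrix.mul_smul, ← Matrix.mul_assoc, e', Matrix.smul_mul, smul_smul,
    Matrix.mul_assoc]

lemma nrm3_smul {A : Matrix K3 K3 F} (hA : Nrm3 ω A) (c : F) : Nrm3 ω (c • A) := by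
  intro v
  obtain ⟨w, d, hd, e⟩ := hA v
  exact ⟨w, d, hd, by rw [Matrix.smul_mul, e, Matrix.mul_smul, smul_comm]⟩

lemma jNine_apply (p q : I9) : (jNine : Matrix I9 I9 F) p q = if p + q = 0 then 1 else 0 := by
  simp only [jNine, piM, Matrix.kroneckerMap_apply, Matrix.of_apply, Prod.ext_iff, Prod.fst_add,
    Prod.snd_add, Prod.fst_zero, Prod.snd_zero]
  by_cases h1 : p.1 + q.1 = 0 <;> by_cases h2 : p.2 + q.2 = 0 <;> simp [h1, h2]

lemma comm_jNine_iff {A : Matrix I9 I9 F} :
    A * (jNine : Matrix I9 I9 F) = jNine * A ↔ ∀ p q, A (-p) q = A p (-q) := by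
  have l : ∀ p q, ((jNine : Matrix I9 I9 F) * A) p q = A (-p) q := by
    intro p q
    rw [Matrix.mul_apply, Finset.sum_eq_single (-p)]
    · simp [jNine_apply]
    · intro b _ hb
      rw [jNine_apply, if_neg (fun h => hb (eq_neg_of_add_eq_zero_right h)), zero_mul]
    · simp
  have r : ∀ p q, (A * (jNine : Matrix I9 I9 F)) p q = A p (-q) := by
    intro p q
    rw [Matrix.mul_apply, Finset.sum_eq_single (-q)]
    · simp [jNine_apply]
    · intro b _ hb
      rw [jNine_apply, if_neg (fun h => hb (eq_neg_of_add_eq_zero_left h)), mul_zero]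
    · simp
  rw [← Matrix.ext_iff]
  simp only [l, r]
  exact ⟨fun h p q => (h p q).symm, fun h p q => (h p q).symm⟩

lemma eJ_zero : eJ (Sum.inl ()) = (0 : I9) := rfl

lemma eJ_inl (i : Fin 4) : eJ (Sum.inr (Sum.inl i)) = rep i := rfl

lemma eJ_inr (i : Fin 4) : eJ (Sum.inr (Sum.inr i)) = -rep i := rfl

lemma al_eJ_apply (A : Matrix I9 I9 F) (i k : Fin 4) :
    al eJ A i k = A (rep i) (rep k) + A (rep i) (-rep k) := rfl

lemma al_eJ_mul (hF : Four ω) {A B : Matrix I9 I9 F} (hB : B * (jNine : Matrix I9 I9 F) = jNine * B) :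
    al eJ (A * B) = al eJ A * al eJ B := by
  ext i k
  have hs : ∀ q, (A * B) (rep i) q = A (rep i) 0 * B 0 q +
      ((∑ l, A (rep i) (rep l) * B (rep l) q) + ∑ l, A (rep i) (-rep l) * B (-rep l) q) := by
    intro q
    rw [Matrix.mul_apply, ← eJ.sum_comp, Fintype.sum_sum_type, Fintype.sum_sum_type]
    simp [eJ_inl, eJ_inr, eJ_zero]
  have h0 : B 0 (-rep k) = B 0 (rep k) := by
    simpa using ((comm_jNine_iff.1 hB) 0 (rep k)).symm
  have hn : ∀ l, B (-rep l) (rep k) = B (rep l) (-rep k) := fun l => (comm_jNine_iff.1 hB) _ _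
  have hn' : ∀ l, B (-rep l) (-rep k) = B (rep l) (rep k) := fun l => by
    simpa using (comm_jNine_iff.1 hB) (rep l) (-rep k)
  simp only [al_eJ_apply, hs, h0, hn, hn', Matrix.mul_apply, mul_add, add_mul,
    Finset.sum_add_distrib]
  linear_combination hF.add_self (A (rep i) 0 * B 0 (rep k))

theorem RealJ.mul (hF : Four ω) {g g' : Matrix (Fin 4) (Fin 4) F} (hg : RealJ ω g)
    (hg' : RealJ ω g') : RealJ ω (g * g') := by
  obtain ⟨h, hu, hd, hn, hj, rfl⟩ := hg
  obtain ⟨h', hu', hd', hn', hj', rfl⟩ := hg'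
  exact ⟨h * h', hu.mul hF hu', by rw [Matrix.det_mul, hd, hd', one_mul], hn.mul hn',
    by rw [Matrix.mul_assoc, hj', ← Matrix.mul_assoc, hj, Matrix.mul_assoc], al_eJ_mul hF hj'⟩

section Diag

/-- A diagonal matrix of powers of `ω`. -/
def wdia {ι : Type*} [DecidableEq ι] (ω : F) (f : ι → K3) : Matrix ι ι F :=
  Matrix.diagonal fun p => wp ω (f p)

lemma wdia_add {ι : Type*} [Fintype ι] [DecidableEq ι] (hω : CSixNine.Omega ω) (f g : ι → K3) :
    wdia ω (fun p => f p + g p) = wdia ω f * wdia ω g := by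
  simp [wdia, hω.wp_add]

lemma wp_cube (hω : CSixNine.Omega ω) (a : K3) : wp ω a ^ 3 = 1 := by
  rw [wp, ← pow_mul, mul_comm, pow_mul, hω.cube, one_pow]

lemma uni_wdia {ι : Type*} [Fintype ι] [DecidableEq ι] (hω : CSixNine.Omega ω) (f : ι → K3) :
    Uni (wdia ω f) := by
  have : ct (wdia ω f) = Matrix.diagonal fun p => wp ω (f p) ^ 2 := by
    ext i k
    by_cases h : i = k
    · subst h; simp [ct_apply, wdia]
    · simp [ct_apply, wdia, h, Ne.symm h]
  show ct _ * _ = _
  rw [this, wdia, Matrix.diagonal_mul_diagonal]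
  simp [← pow_succ, wp_cube hω]

lemma wp_sum (hω : CSixNine.Omega ω) {ι : Type*} (s : Finset ι) (f : ι → K3) :
    wp ω (∑ i ∈ s, f i) = ∏ i ∈ s, wp ω (f i) := by
  classical
  induction s using Finset.induction with
  | empty => simp
  | insert a s ha ih => rw [Finset.sum_insert ha, Finset.prod_insert ha, hω.wp_add, ih]

lemma nrm9_wdia_xy (hω : CSixNine.Omega ω) : Nrm9 ω (wdia ω fun p : I9 => p.1 * p.2) := by
  have := Nrm9.cx hω
  rwa [cx_eq] at this

lemma nrm3_tau (hω : CSixNine.Omega ω) : Nrm3 ω (tauM ω) := Nrm3.of_induces (tau_P3 hω)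

lemma nrm3_four (hω : CSixNine.Omega ω) : Nrm3 ω (fourM ω) := Nrm3.of_induces (four_P3 hω)

lemma wdia_sq (ω : F) : (wdia ω fun i : K3 => i * i) = tauM ω := by
  rw [tau_eq, wdia]
  congr 1; funext i
  have : ∀ i : K3, i * i = if i = 0 then 0 else 1 := by decide
  rw [this]

lemma nrm9_wdia_xx (hω : CSixNine.Omega ω) : Nrm9 ω (wdia ω fun p : I9 => p.1 * p.1) := by
  have := Nrm9.kron (nrm3_tau hω) (Nrm3.one (ω := ω))
  rw [← wdia_sq, wdia, ← Matrix.diagonal_one, Matrix.diagonal_kronecker_diagonal] at this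
  simpa [wdia] using this

lemma nrm9_wdia_yy (hω : CSixNine.Omega ω) : Nrm9 ω (wdia ω fun p : I9 => p.2 * p.2) := by
  have := Nrm9.kron (Nrm3.one (ω := ω)) (nrm3_tau hω)
  rw [← wdia_sq, wdia, ← Matrix.diagonal_one, Matrix.diagonal_kronecker_diagonal] at this
  simpa [wdia] using this

lemma nrm9_wdia_smul (hω : CSixNine.Omega ω) {f : I9 → K3} (hf : Nrm9 ω (wdia ω f)) (a : K3) :
    Nrm9 ω (wdia ω fun p => a * f p) := by
  obtain rfl | rfl | rfl : a = 0 ∨ a = 1 ∨ a = 2 := by revert a; decide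
  · simp [wdia, Matrix.diagonal_one, Nrm9.one]
  · simpa using hf
  · simp only [two_mul]; rw [wdia_add hω]; exact hf.mul hf

lemma nrm9_quad (hω : CSixNine.Omega ω) (α β γ c : K3) :
    Nrm9 ω (wdia ω fun p : I9 => α * (p.1 * p.1) + β * (p.1 * p.2) + γ * (p.2 * p.2) + c) := by
  rw [wdia_add hω, wdia_add hω, wdia_add hω]
  refine (((nrm9_wdia_smul hω (nrm9_wdia_xx hω) α).mul (nrm9_wdia_smul hω (nrm9_wdia_xy hω) β)).mul
    (nrm9_wdia_smul hω (nrm9_wdia_yy hω) γ)).mul ?_
  have : (wdia ω fun _ : I9 => c) = wp ω c • (1 : Matrix I9 I9 F) := by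
    rw [wdia, Matrix.smul_one_eq_diagonal]
  rw [this]; exact Nrm9.scalar _

lemma exists_quad : ∀ a0 a1 a2 a3 : K3, ∃ α β γ c : K3,
    α + c = a0 ∧ γ + c = a1 ∧ α + β + γ + c = a2 ∧ α + 2 * β + γ + c = a3 := by
  decide +kernel

lemma rep_ne_neg : ∀ i k : Fin 4, rep i ≠ -rep k := by decide

lemma rep_inj : ∀ i k : Fin 4, rep i = rep k → i = k := by decide

lemma quad_sum : ∀ α β γ c : K3,
    ∑ p : I9, (α * (p.1 * p.1) + β * (p.1 * p.2) + γ * (p.2 * p.2) + c) = 0 := by
  decide +kernel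

lemma exists_phase (hF : Four ω) {x : F} (hx : x ≠ 0) : ∃ a : K3, x = wp ω a :=
  hF.om.exists_wp (hF.cube hx)

theorem RealJ.diag (hF : Four ω) (d : Fin 4 → F) (hd : ∀ i, d i ≠ 0) :
    RealJ ω (Matrix.diagonal d) := by
  have hω := hF.om
  choose a ha using fun i => exists_phase hF (hd i)
  obtain ⟨α, β, γ, c, h0, h1, h2, h3⟩ := exists_quad (a 0) (a 1) (a 2) (a 3)
  set Q : I9 → K3 := fun p => α * (p.1 * p.1) + β * (p.1 * p.2) + γ * (p.2 * p.2) + c with hQ
  have hev : ∀ p, Q (-p) = Q p := fun p => by simp [hQ]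
  refine ⟨wdia ω Q, uni_wdia hω _, ?_, nrm9_quad hω α β γ c, ?_, ?_⟩
  · rw [wdia, Matrix.det_diagonal, ← wp_sum hω, quad_sum α β γ c, wp_zero]
  · rw [comm_jNine_iff]
    intro p q
    by_cases h : -p = q
    · subst h; simp [wdia, hev]
    · have h' : p ≠ -q := fun e => h (by rw [e, neg_neg])
      simp [wdia, h, h']
  · ext i k
    rw [al_eJ_apply, wdia, Matrix.diagonal_apply_ne _ (rep_ne_neg i k), add_zero]
    by_cases h : i = k
    · subst h
      rw [Matrix.diagonal_apply_eq, Matrix.diagonal_apply_eq, ha i]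
      congr 1
      have h4 : (2 : K3) * 2 = 1 := by decide
      fin_cases i <;> simp [hQ, rep, ← h0, ← h1, ← h2, ← h3, h4] <;> ring
    · rw [Matrix.diagonal_apply_ne _ h, Matrix.diagonal_apply_ne _ (fun e => h (rep_inj i k e))]

end Diag

section Perm

/-- A linear map of the plane. -/
def linMap (a b c d : K3) (p : I9) : I9 := (a * p.1 + b * p.2, c * p.1 + d * p.2)

/-- A permutation matrix. -/
def permM {ι : Type*} [DecidableEq ι] (L : ι → ι) : Matrix ι ι F :=
  Matrix.of fun p q => if p = L q then 1 else 0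

lemma permM_mul_apply {ι : Type*} [Fintype ι] [DecidableEq ι] (e : ι ≃ ι) (A : Matrix ι ι F)
    (p q : ι) : ((permM e : Matrix ι ι F) * A) p q = A (e.symm p) q := by
  rw [Matrix.mul_apply, Finset.sum_eq_single (e.symm p)]
  · simp [permM]
  · intro b _ hb
    have : p ≠ e b := fun h => hb (by rw [h, Equiv.symm_apply_apply])
    simp [permM, this]
  · simp

lemma mul_permM_apply {ι : Type*} [Fintype ι] [DecidableEq ι] (L : ι → ι) (A : Matrix ι ι F)
    (p q : ι) : (A * (permM L : Matrix ι ι F)) p q = A p (L q) := by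
  rw [Matrix.mul_apply, Finset.sum_eq_single (L q)]
  · simp [permM]
  · intro b _ hb; simp [permM, hb]
  · simp

lemma uni_permM {ι : Type*} [Fintype ι] [DecidableEq ι] {L : ι → ι} (hL : Function.Injective L) :
    Uni (permM L : Matrix ι ι F) := by
  show ct _ * _ = _
  ext i k
  rw [Matrix.mul_apply, Finset.sum_eq_single (L k)]
  · by_cases h : i = k
    · subst h; simp [ct_apply, permM]
    · simp [ct_apply, permM, h, hL.eq_iff, Ne.symm h]
  · intro b _ hb; simp [permM, hb]
  · simp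

lemma det_permM (hF : Four ω) {ι : Type*} [Fintype ι] [DecidableEq ι] (e : ι ≃ ι) :
    (permM e : Matrix ι ι F).det = 1 := by
  have : (permM e : Matrix ι ι F) = Equiv.Perm.permMatrix F e.symm := by
    ext p q
    simp [permM, Equiv.Perm.permMatrix, PEquiv.toMatrix_apply, Equiv.symm_apply_eq]
  rw [this, Matrix.det_permutation]
  rcases Int.units_eq_one_or (Equiv.Perm.sign e.symm) with h | h <;> simp [h, hF.neg]

lemma nrm9_permM (hω : CSixNine.Omega ω) {a b c d : K3} (hD : (a * d - b * c) * (a * d - b * c) = 1)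
    (e : I9 ≃ I9) (he : ∀ p, e p = linMap a b c d p) : Nrm9 ω (permM e : Matrix I9 I9 F) := by
  intro v
  set D := a * d - b * c with hDdef
  refine ⟨((D * (d * v.1.1 - c * v.2.1), a * v.1.2 + b * v.2.2),
    (D * (-b * v.1.1 + a * v.2.1), c * v.1.2 + d * v.2.2)), 1, one_ne_zero, ?_⟩
  rw [one_smul]
  ext p q
  obtain ⟨r, rfl⟩ := e.surjective p
  rw [permM_mul_apply, mul_permM_apply, Equiv.symm_apply_apply, he r, he q]
  obtain ⟨i, j⟩ := r
  obtain ⟨k, l⟩ := q
  simp only [P9, Matrix.kroneckerMap_apply, P3_apply, linMap]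
  by_cases h : i = k + v.1.2 ∧ j = l + v.2.2
  · obtain ⟨rfl, rfl⟩ := h
    rw [if_pos rfl, if_pos rfl, if_pos (by ring), if_pos (by ring), ← hω.wp_add, ← hω.wp_add]
    congr 1
    linear_combination (-(v.1.1 * (k + v.1.2) + v.2.1 * (l + v.2.2))) * hD
  · have : ¬ (a * i + b * j = a * k + b * l + (a * v.1.2 + b * v.2.2) ∧
        c * i + d * j = c * k + d * l + (c * v.1.2 + d * v.2.2)) := by
      rintro ⟨e1, e2⟩
      refine h ⟨?_, ?_⟩
      · linear_combination D * d * e1 - D * b * e2 - (i - k - v.1.2) * hD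
      · linear_combination D * a * e2 - D * c * e1 - (j - l - v.2.2) * hD
    rw [not_and_or] at this h
    rcases h with h | h <;> rcases this with h' | h' <;> simp [h, h']

lemma exists_lin_swap : ∀ s t : Fin 4, ∃ a b c d : K3, (a * d - b * c) * (a * d - b * c) = 1 ∧
    (∀ i k, (rep i = linMap a b c d (rep k) ∨ rep i = linMap a b c d (-rep k)) ↔
      i = Equiv.swap s t k) := by
  decide +kernel

theorem RealJ.swap (hF : Four ω) (s t : Fin 4) :
    RealJ ω (swp s t : Matrix (Fin 4) (Fin 4) F) := by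
  obtain ⟨a, b, c, d, hD, hl⟩ := exists_lin_swap s t
  have hinj : Function.Injective (linMap a b c d) := by
    intro p q h
    simp only [linMap, Prod.mk.injEq] at h
    set D := a * d - b * c with hDdef
    refine Prod.ext ?_ ?_
    · linear_combination D * d * h.1 - D * b * h.2 - (p.1 - q.1) * hD
    · linear_combination D * a * h.2 - D * c * h.1 - (p.2 - q.2) * hD
  let e : I9 ≃ I9 := Equiv.ofBijective _ (Finite.injective_iff_bijective.1 hinj)
  have he : ∀ p, e p = linMap a b c d p := fun _ => rfl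
  have hneg : ∀ p, linMap a b c d (-p) = -linMap a b c d p := fun p => by
    ext <;> simp [linMap] <;> ring
  refine ⟨permM e, uni_permM e.injective, det_permM hF e, nrm9_permM hF.om hD e he, ?_, ?_⟩
  · rw [comm_jNine_iff]
    intro p q
    simp only [permM, Matrix.of_apply, he, hneg, neg_eq_iff_eq_neg]
  · ext i k
    simp only [al_eJ_apply, permM, swp, Matrix.of_apply, he]
    by_cases h : i = Equiv.swap s t k
    · rw [if_pos h]
      rcases (hl i k).2 h with h1 | h1
      · have : rep i ≠ linMap a b c d (-rep k) := by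
          rw [h1]; exact fun e' => rep_ne_neg k k (hinj e')
        rw [if_pos h1, if_neg this, add_zero]
      · have : rep i ≠ linMap a b c d (rep k) := by
          rw [h1]; exact fun e' => rep_ne_neg k k (hinj e').symm
        rw [if_neg this, if_pos h1, zero_add]
    · rw [if_neg h, if_neg fun e' => h ((hl i k).1 (.inl e')),
        if_neg fun e' => h ((hl i k).1 (.inr e')), add_zero]

end Perm

section Refl

lemma four_ct (hF : Four ω) : Uni (fourM ω) := by
  show ct _ * _ = _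
  ext i k
  have h : ∀ a : K3, wp ω a ^ 2 = wp ω (-a) := fun a => by
    rw [sq, ← hF.om.wp_add]; congr 1; revert a; decide
  have : (ct (fourM ω) * fourM ω) i k = (fourM ω * fourM ω) (-i) k := by
    simp only [Matrix.mul_apply, ct_apply, fourM, Matrix.of_apply, h, neg_mul, mul_comm i]
  rw [this, four_sq_apply hF.om, Matrix.one_apply]
  have h3 : (3 : F) = 1 := by linear_combination hF.two
  by_cases hik : i = k
  · subst hik; simp [h3]
  · simp [hik, neg_add_eq_zero]

lemma uni_kron_one (hF : Four ω) {A : Matrix K3 K3 F} (hA : Uni A) :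
    Uni (A ⊗ₖ (1 : Matrix K3 K3 F)) := by
  show ct _ * _ = _
  rw [ct_kronecker, ct_one, kron_mul, hA, Matrix.one_mul, Matrix.one_kronecker_one]

lemma uni_smul {ι : Type*} [Fintype ι] [DecidableEq ι] {c : F} (hc : c ^ 3 = 1)
    {A : Matrix ι ι F} (hA : Uni A) : Uni (c • A) := by
  show ct _ * _ = _
  rw [ct_smul, Matrix.smul_mul, Matrix.mul_smul, smul_smul, hA, ← pow_succ, hc, one_smul]

lemma det_ne_zero_of_uni {ι : Type*} [Fintype ι] [DecidableEq ι] {A : Matrix ι ι F} (hA : Uni A) :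
    A.det ≠ 0 := fun h => by
  have := congrArg Matrix.det hA
  rw [Matrix.det_mul, h, mul_zero, Matrix.det_one] at this
  exact zero_ne_one this

theorem RealJ.four (hF : Four ω) : RealJ ω (al eJ (fourM ω ⊗ₖ (1 : Matrix K3 K3 F))) := by
  refine ⟨_, uni_kron_one hF (four_ct hF), ?_, Nrm9.kron (nrm3_four hF.om) Nrm3.one, ?_, rfl⟩
  · rw [Matrix.det_kronecker, Matrix.det_one, one_pow, mul_one, ZMod.card,
      hF.cube (det_ne_zero_of_uni (four_ct hF))]
  · rw [comm_jNine_iff]
    intro p q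
    simp only [Matrix.kroneckerMap_apply, fourM, Matrix.of_apply, Matrix.one_apply, Prod.fst_neg,
      Prod.snd_neg, neg_mul, mul_neg, neg_eq_iff_eq_neg]

theorem RealJ.scalar_mul (hF : Four ω) {g : Matrix (Fin 4) (Fin 4) F} (hg : RealJ ω g) {c : F}
    (hc : c ≠ 0) : RealJ ω (c • g) := by
  have := (RealJ.diag hF (fun _ => c) fun _ => hc).mul hF hg
  rwa [← Matrix.smul_one_eq_diagonal, Matrix.smul_mul, Matrix.one_mul] at this

lemma refl3_eq_four (hF : Four ω) :
    (refl3 ω (1 : Fin 4) 2 3) = ω • (Matrix.diagonal (![ω, 1, ω, ω] : Fin 4 → F) *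
      al eJ (fourM ω ⊗ₖ (1 : Matrix K3 K3 F)) * Matrix.diagonal ![ω, 1, ω, ω]) := by
  ext i k
  rw [Matrix.smul_apply, Matrix.mul_diagonal, Matrix.diagonal_mul, smul_eq_mul, al_eJ_apply]
  have e2 : wp ω 2 = ω ^ 2 := rfl
  have h3 := hF.om.cube
  have h2 := hF.two
  have h1 := hF.om.eqn
  fin_cases i <;> fin_cases k <;>
    simp (decide := true) [refl3, fourM, rep, wp_one, e2, Matrix.one_apply,
      show (-1 : K3) = 2 from rfl, show (-2 : K3) = 1 from rfl, show (2 : K3) * 2 = 1 from rfl] <;>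
    grind

lemma refl3_perm : ∀ a b c : Fin 4, a ≠ b → a ≠ c → b ≠ c → ∃ d : Fin 4, ∀ i,
    (i = a ∨ i = b ∨ i = c) ↔
      (Equiv.swap 0 d i = 1 ∨ Equiv.swap 0 d i = 2 ∨ Equiv.swap 0 d i = 3) := by
  decide +kernel

theorem RealJ.refl (hF : Four ω) {a b c : Fin 4} (hab : a ≠ b) (hac : a ≠ c) (hbc : b ≠ c) :
    RealJ ω (refl3 ω a b c) := by
  have hω0 := hF.om.ne_zero
  have hD : RealJ ω (Matrix.diagonal (![ω, 1, ω, ω] : Fin 4 → F)) :=
    RealJ.diag hF _ fun i => by fin_cases i <;> simp [hω0]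
  have h0 : RealJ ω (refl3 ω (1 : Fin 4) 2 3) := by
    rw [refl3_eq_four hF]
    exact ((hD.mul hF (RealJ.four hF)).mul hF hD).scalar_mul hF hω0
  obtain ⟨d, hd⟩ := refl3_perm a b c hab hac hbc
  have key : refl3 ω a b c = swp (0 : Fin 4) d * refl3 ω (1 : Fin 4) 2 3 * swp (0 : Fin 4) d := by
    ext i k
    have e : (swp (0 : Fin 4) d : Matrix (Fin 4) (Fin 4) F) = permM (Equiv.swap (0 : Fin 4) d) := rfl
    rw [e, mul_permM_apply, permM_mul_apply, Equiv.symm_swap]
    simp only [refl3, Matrix.of_apply, hd, (Equiv.swap (0 : Fin 4) d).injective.eq_iff]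
  rw [key]
  exact ((RealJ.swap hF 0 d).mul hF h0).mul hF (RealJ.swap hF 0 d)

end Refl

section Three

lemma piM_eq : (piM : Matrix K3 K3 F) = permM (fun i : K3 => -i) := by
  ext i k; simp [piM, permM, add_eq_zero_iff_eq_neg]

lemma nrm3_permM_neg (hω : CSixNine.Omega ω) : Nrm3 ω (piM : Matrix K3 K3 F) := by
  intro v
  refine ⟨-v, 1, one_ne_zero, ?_⟩
  rw [one_smul, piM_eq, show (permM fun i : K3 => -i : Matrix K3 K3 F) = permM (Equiv.neg K3) from rfl]
  ext i k
  rw [permM_mul_apply, mul_permM_apply, P3_apply, P3_apply, Equiv.neg_symm]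
  simp only [Equiv.neg_apply, Prod.fst_neg, Prod.snd_neg, ← neg_add, neg_mul, mul_neg,
    neg_eq_iff_eq_neg]

lemma exists_quad3 : ∀ a0 a1 a2 : K3, ∃ α β c : K3, ∀ i : K3,
    (if i = 0 then a0 else if i = 1 then a1 else a2) = α * (i * i) + β * i + c := by
  decide +kernel

theorem nrm3_diag (hF : Four ω) (d : K3 → F) (hd : ∀ i, d i ≠ 0) :
    Nrm3 ω (Matrix.diagonal d) := by
  have hω := hF.om
  choose a ha using fun i => exists_phase hF (hd i)
  obtain ⟨α, β, c, h⟩ := exists_quad3 (a 0) (a 1) (a 2)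
  have : Matrix.diagonal d = wdia ω (fun i : K3 => α * (i * i) + β * i + c) := by
    rw [wdia]; congr 1; funext i
    rw [ha i]; congr 1
    obtain rfl | rfl | rfl : i = 0 ∨ i = 1 ∨ i = 2 := by revert i; decide
    · simpa using h 0
    · simpa using h 1
    · simpa (decide := true) using h 2
  rw [this, wdia_add hω, wdia_add hω]
  refine nrm3_mul (nrm3_mul ?_ ?_) ?_
  · obtain rfl | rfl | rfl : α = 0 ∨ α = 1 ∨ α = 2 :=
      (by decide : ∀ i : K3, i = 0 ∨ i = 1 ∨ i = 2) α
    · simp [wdia, Matrix.diagonal_one, Nrm3.one]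
    · simpa [wdia_sq] using nrm3_tau hω
    · simp only [two_mul]; rw [wdia_add hω, wdia_sq]; exact nrm3_mul (nrm3_tau hω) (nrm3_tau hω)
  · have : (wdia ω fun i : K3 => β * i) = P3 ω (β, 0) := by
      ext i k; by_cases h : i = k <;> simp [wdia, P3_apply, h]
    rw [this]
    exact fun v => ⟨v, wp ω (sym (β, 0) v), hω.wp_ne_zero _, P3_comm hω (β, 0) v⟩
  · have : (wdia ω fun _ : K3 => c) = wp ω c • (1 : Matrix K3 K3 F) := by
      rw [wdia, Matrix.smul_one_eq_diagonal]
    rw [this]; exact nrm3_smul Nrm3.one _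

lemma swap_affine : ∀ a b : K3, a ≠ b → ∀ k, Equiv.swap a b k = a + b - k := by decide

theorem nrm3_swp (hF : Four ω) (a b : K3) : Nrm3 ω (swp a b : Matrix K3 K3 F) := by
  have hω := hF.om
  by_cases h : a = b
  · subst h
    have : (swp a a : Matrix K3 K3 F) = 1 := by ext i k; simp [swp, Matrix.one_apply]
    rw [this]; exact Nrm3.one
  have : (swp a b : Matrix K3 K3 F) = P3 ω (0, a + b) * piM := by
    ext i k
    rw [piM_eq, mul_permM_apply, P3_apply]
    simp only [swp, Matrix.of_apply, zero_mul, wp_zero, swap_affine a b h k, neg_add_eq_sub]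
  rw [this]
  exact nrm3_mul (fun v => ⟨v, wp ω (sym (0, a + b) v), hω.wp_ne_zero _, P3_comm hω (0, a + b) v⟩)
    (nrm3_permM_neg hω)

lemma k3_cases : ∀ i : K3, i = 0 ∨ i = 1 ∨ i = 2 := by decide

lemma three_all : ∀ a b c i : K3, a ≠ b → a ≠ c → b ≠ c → i = a ∨ i = b ∨ i = c := by decide

theorem nrm3_refl (hF : Four ω) {a b c : K3} (hab : a ≠ b) (hac : a ≠ c) (hbc : b ≠ c) :
    Nrm3 ω (refl3 ω a b c) := by
  have hω := hF.om
  have : refl3 ω a b c = ω • (tauM ω * fourM ω * tauM ω) := by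
    ext i k
    have hi := three_all a b c i hab hac hbc
    have hk := three_all a b c k hab hac hbc
    simp only [refl3, Matrix.of_apply, hi, hk, and_self, if_true, Matrix.smul_apply, tauM,
      Matrix.mul_diagonal, Matrix.diagonal_mul, fourM, smul_eq_mul]
    have e2 : wp ω 2 = ω ^ 2 := rfl
    have e4 : (2 : K3) * 2 = 1 := by decide
    have h3 := hω.cube
    have h2 := hF.two
    have h1 := hω.eqn
    obtain rfl | rfl | rfl := k3_cases i
    all_goals obtain rfl | rfl | rfl := k3_cases k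
    all_goals simp (decide := true) [wp_one, e2, e4] <;> grind
  rw [this]
  exact nrm3_smul (nrm3_mul (nrm3_mul (nrm3_tau hω) (nrm3_four hω)) (nrm3_tau hω)) _

end Three

/-- Every unitary matrix on the image of the sign change comes from the weight normaliser. -/
theorem exists_alJ (hF : Four ω) {g : Matrix (Fin 4) (Fin 4) F} (hg : Uni g) :
    ∃ h : Matrix I9 I9 F, Uni h ∧ Matrix.det h = 1 ∧ Nrm9 ω h ∧ h * jNine = jNine * h ∧ al eJ h = g :=
  gen_unitary (G := RealJ ω) hF (by simp) (fun _ _ => RealJ.mul hF) (RealJ.diag hF)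
    (fun a b _ => RealJ.swap hF a b) (fun _ _ _ h1 h2 h3 => RealJ.refl hF h1 h2 h3) hg

/-- In dimension three every unitary matrix normalises the weights. -/
theorem uni_nrm3 (hF : Four ω) {g : Matrix K3 K3 F} (hg : Uni g) : Nrm3 ω g :=
  gen_unitary (G := Nrm3 ω) hF (by simp) (fun _ _ => nrm3_mul) (nrm3_diag hF)
    (fun a b _ => nrm3_swp hF a b) (fun _ _ _ h1 h2 h3 => nrm3_refl hF h1 h2 h3) hg

end Cfsg.Agent.CSixNineTwo
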