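import Cfsg.Agent.CSixNineTwo.CentTJ
import Cfsg.Agent.CSixNineTwo.RealJ
import Cfsg.Agent.CSixNine.Centr

/-!
An overgroup without transvections of the weight normaliser in the nine dimensional unitary group
over the field of four elements normalises the weights.
-/

set_option autoImplicit false
set_option linter.unusedSectionVars false

namespace Cfsg.Agent.CSixNineTwo

open Matrix Cfsg.Agent.CSixNine
open scoped Kronecker

variable {F : Type*} [Field F] {ω : F}

lemma Four.finite (hF : Four ω) : Finite F := by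
  classical
  exact Set.finite_univ_iff.1 ((({0, 1, ω, ω ^ 2} : Finset F).finite_toSet).subset fun x _ => by
    simpa using hF.cases x)

lemma jNine_P9 (v : W9) : (jNine : Matrix I9 I9 F) * P9 ω v = P9 ω (-v) * jNine := by
  have e : ∀ a : K3 × K3, (piM : Matrix K3 K3 F) * P3 ω a = P3 ω (-a) * piM := by
    intro a
    ext i k
    rw [Matrix.mul_apply, Finset.sum_eq_single (-i), P3_mul_apply]
    · simp only [piM, Matrix.of_apply, P3_apply, Prod.fst_neg, Prod.snd_neg, add_neg_cancel, if_true,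
        one_mul, mul_neg, neg_mul, sub_neg_eq_add]
      by_cases h : -i = k + a.2
      · rw [if_pos h, if_pos (by linear_combination -h)]; simp
      · rw [if_neg h, if_neg (fun h' => h (by linear_combination -h'))]; simp
    · intro j _ hj
      simp only [piM, Matrix.of_apply]
      rw [if_neg (fun h' => hj (by linear_combination h')), zero_mul]
    · simp
  rw [jNine, P9, P9, kron_mul, kron_mul, e, e]
  rfl

lemma swM_eq_ct : ct (swM : Matrix I9 I9 F) = swM := by
  ext p r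
  simp only [ct_apply, swM, Matrix.of_apply]
  have : (r = p.swap) ↔ (p = r.swap) := ⟨fun h => by rw [h, Prod.swap_swap], fun h => by rw [h, Prod.swap_swap]⟩
  simp only [this]
  split_ifs <;> simp

lemma swM_sq : (swM : Matrix I9 I9 F) * swM = 1 := by
  rw [swM_mul]
  ext p r
  rw [Matrix.mul_apply, Finset.sum_eq_single r.swap]
  · simp [sw, swM, Matrix.one_apply, Prod.swap_inj, eq_comm]
  · intro b _ hb; simp [swM, hb]
  · simp

lemma swM_mem (hF : Four ω) {M : Matrix I9 I9 F → Prop} (hM : Ov ω M) :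
    M (swM : Matrix I9 I9 F) := by
  refine hM.nrm _ ?_ ?_ Nrm9.swap
  · show ct swM * swM = 1
    rw [swM_eq_ct, swM_sq]
  · have h := congrArg Matrix.det (swM_sq (F := F))
    rw [Matrix.det_mul, Matrix.det_one] at h
    exact hF.eq_add ((pow_eq_zero_iff two_ne_zero).1 (show (Matrix.det (swM : Matrix I9 I9 F) + 1) ^ 2 = 0 by
      linear_combination h + (Matrix.det (swM : Matrix I9 I9 F) + 1) * hF.two))

/-- An involution of the three dimensional unitary group is a transvection. -/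
lemma invol3 (hF : Four ω) {a : Matrix K3 K3 F} (ha : Uni a) (h2 : a * a = 1) :
    a = 1 ∨ ∃ u, Uni u ∧ u * a * ct u = piM := by
  classical
  have hah : ct a = a := by
    calc ct a = ct a * (a * a) := by rw [h2, Matrix.mul_one]
      _ = a := by rw [← Matrix.mul_assoc, ha, Matrix.one_mul]
  obtain ⟨Y, hY⟩ : ∃ Y, Y = a + 1 := ⟨_, rfl⟩
  have hYh : ct Y = Y := by rw [hY, ct_add hF, hah, ct_one]
  have hYY : Y * Y = 0 := by
    rw [hY, Matrix.add_mul, Matrix.mul_add, h2, Matrix.mul_one, Matrix.one_mul]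
    linear_combination (norm := module) add_self_mat hF a + add_self_mat hF (1 : Matrix K3 K3 F)
  by_cases hY0 : Y = 0
  · exact Or.inl (eq_of_add_eq_zero hF (hY ▸ hY0))
  right
  obtain ⟨k, hk⟩ : ∃ k, ∃ i, Y i k ≠ 0 := by
    by_contra hc
    push Not at hc
    exact hY0 (by ext i k; exact hc k i)
  -- the column has exactly one zero
  have hs : ∀ f : K3 → F, ∑ i, f i = f 0 + f 1 + f 2 := fun f => by
    rw [show (Finset.univ : Finset K3) = {0, 1, 2} from by decide, Finset.sum_insert (by decide),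
      Finset.sum_insert (by decide), Finset.sum_singleton, add_assoc]
  obtain ⟨i₀, hi₀, hne⟩ : ∃ i₀, Y i₀ k = 0 ∧ ∀ i, i ≠ i₀ → Y i k ≠ 0 := by
    have h := congrFun (congrFun hYY k) k
    rw [← hYh, Matrix.mul_apply, hs] at h
    simp only [ct_apply, Matrix.zero_apply] at h
    have hc : ∀ x : F, x ^ 2 * (x ^ 2) ^ 2 = if x = 0 then 0 else 1 := fun x => by
      rw [hF.sq_sq]
      split_ifs with hx
      · subst hx; simp
      · rw [← pow_succ, hF.cube hx]
    have h' : ∀ i, Y k i = Y i k ^ 2 := fun i => (congrFun (congrFun hYh k) i).symm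
    simp only [h', hc] at h
    have h1 : (1 : F) ≠ 0 := one_ne_zero
    have h3 : (3 : F) ≠ 0 := hF.om.three
    obtain ⟨i, hi⟩ := hk
    by_cases e0 : Y 0 k = 0 <;> by_cases e1 : Y 1 k = 0 <;> by_cases e2 : Y 2 k = 0 <;>
      simp [e0, e1, e2] at h
    all_goals first
      | (refine absurd ?_ hi
         obtain rfl | rfl | rfl := (show ∀ j : K3, j = 0 ∨ j = 1 ∨ j = 2 by decide) i
         all_goals assumption)
      | exact absurd (by linear_combination h) h3
      | (refine ⟨0, e0, fun i hi => ?_⟩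
         obtain rfl | rfl | rfl : i = 0 ∨ i = 1 ∨ i = 2 := by revert i; decide
         all_goals first | exact absurd rfl hi | assumption)
      | (refine ⟨1, e1, fun i hi => ?_⟩
         obtain rfl | rfl | rfl : i = 0 ∨ i = 1 ∨ i = 2 := by revert i; decide
         all_goals first | exact absurd rfl hi | assumption)
      | (refine ⟨2, e2, fun i hi => ?_⟩
         obtain rfl | rfl | rfl : i = 0 ∨ i = 1 ∨ i = 2 := by revert i; decide
         all_goals first | exact absurd rfl hi | assumption)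
  obtain ⟨P, hP⟩ : ∃ P : Matrix K3 K3 F, P = swp i₀ 0 := ⟨_, rfl⟩
  have hPu : Uni P := by
    subst hP
    show ct (swp i₀ 0) * swp i₀ 0 = 1
    ext i k
    rw [Matrix.mul_apply]
    simp only [ct_apply, swp, Matrix.of_apply, mul_ite, mul_one, mul_zero, Finset.sum_ite_eq',
      Finset.mem_univ, if_true, (Equiv.swap i₀ (0 : K3)).injective.eq_iff, Matrix.one_apply]
    by_cases h : k = i
    · subst h; simp
    · simp [h, Ne.symm h]
  let v : K3 → F := fun i => Y (Equiv.swap i₀ 0 i) k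
  let d : K3 → F := fun i => if i = 0 then 1 else (v i) ^ 2
  have hv0 : v 0 = 0 := by simp [v, hi₀]
  have hvne : ∀ i, i ≠ 0 → v i ≠ 0 := fun i hi => hne _ fun e => hi (by
    rw [← Equiv.swap_apply_self i₀ 0 i, e, Equiv.swap_apply_left])
  have hd : ∀ i, d i ≠ 0 := fun i => by
    simp only [d]; split
    · exact one_ne_zero
    · next hi => exact pow_ne_zero _ (hvne i hi)
  obtain ⟨W, hW⟩ : ∃ W, W = Matrix.diagonal d * P := ⟨_, rfl⟩
  have hWu : Uni W := hW ▸ (diagonal_uni hF hd).mul hF hPu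
  have hWcol : ∀ i, (W * Y) i k = if i = 0 then 0 else 1 := fun i => by
    have : (P * Y) i k = v i := by
      rw [hP, Matrix.mul_apply, Finset.sum_eq_single (Equiv.swap i₀ 0 i)]
      · simp [swp, v]
      · intro j _ hj
        simp only [swp, Matrix.of_apply]
        rw [if_neg (fun h => hj (by rw [h, Equiv.swap_apply_self])), zero_mul]
      · simp
    rw [hW, Matrix.mul_assoc, Matrix.diagonal_mul, this]
    by_cases hi : i = 0
    · subst hi; simp [hv0]
    · simp only [d, if_neg hi, ← pow_succ]; exact hF.cube (hvne i hi)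
  refine ⟨W, hWu, ?_⟩
  obtain ⟨T, hT⟩ : ∃ T, T = W * Y * ct W := ⟨_, rfl⟩
  have hTh : ∀ i l, T l i ^ 2 = T i l := fun i l => by
    have : ct T = T := by rw [hT, ct_mul hF, ct_mul hF, ct_ct hF, hYh, Matrix.mul_assoc]
    exact congrFun (congrFun this i) l
  have hTT : T * T = 0 := by
    rw [hT, Matrix.mul_assoc (W * Y), ← Matrix.mul_assoc (ct W), ← Matrix.mul_assoc (ct W), hWu,
      Matrix.one_mul, Matrix.mul_assoc W Y, ← Matrix.mul_assoc Y, hYY]
    simp
  have hTw : T * (W * Y) = 0 := by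
    rw [hT, Matrix.mul_assoc (W * Y), ← Matrix.mul_assoc (ct W), hWu, Matrix.one_mul, Matrix.mul_assoc,
      hYY, Matrix.mul_zero]
  have hrow : ∀ i, T i 1 = T i 2 := fun i => by
    have := congrFun (congrFun hTw i) k
    rw [Matrix.mul_apply, hs, hWcol, hWcol, hWcol, if_pos rfl, if_neg (by decide), if_neg (by decide),
      Matrix.zero_apply] at this
    exact hF.eq_add (by linear_combination this)
  have h22 : T 2 2 = T 1 1 := by rw [← hrow 2, ← hTh 2 1, ← hrow 1, hTh 1 1]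
  have h21 : T 2 1 = T 1 1 := by rw [← hTh 2 1, ← hrow 1, hTh 1 1]
  have hT0 : T 0 0 = 0 := by
    have := congrFun (congrFun hTT 0) 0
    rw [Matrix.mul_apply, hs, ← hTh 1 0, ← hTh 2 0, ← hrow 0, Matrix.zero_apply] at this
    have e : T 0 0 ^ 2 = 0 := by linear_combination this - (T 0 1 * T 0 1 ^ 2) * hF.two
    exact (pow_eq_zero_iff two_ne_zero).1 e
  have h01 : T 0 1 = 0 := by
    have := congrFun (congrFun hTT 1) 1
    rw [Matrix.mul_apply, hs, ← hrow 1, h21, ← hTh 1 0, Matrix.zero_apply] at this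
    have e : T 0 1 ^ 3 = 0 := by linear_combination this - (T 1 1 * T 1 1) * hF.two
    exact (pow_eq_zero_iff (by norm_num)).1 e
  have h10 : T 1 0 = 0 := by rw [← hTh 1 0, h01]; simp
  have h20 : T 2 0 = 0 := by rw [← hTh 2 0, ← hrow 0, h01]; simp
  have h11 : T 1 1 = 1 := by
    rcases eq_or_ne (T 1 1) 0 with h0 | h0
    · exfalso
      have hT00 : T = 0 := by
        ext i l
        obtain rfl | rfl | rfl : i = 0 ∨ i = 1 ∨ i = 2 := by revert i; decide
        all_goals obtain rfl | rfl | rfl : l = 0 ∨ l = 1 ∨ l = 2 := by revert l; decide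
        all_goals simp only [Matrix.zero_apply, hT0, h01, ← hrow, h21, h22, h0, h10, h20]
      have : Y = ct W * T * W := by
        rw [hT, ← Matrix.mul_assoc, ← Matrix.mul_assoc, hWu, Matrix.one_mul, Matrix.mul_assoc, hWu,
          Matrix.mul_one]
      exact hY0 (by rw [this, hT00]; simp)
    · exact mul_left_cancel₀ h0 (by rw [mul_one, ← pow_two, hTh 1 1])
  have e : W * a * ct W = T + 1 := by
    rw [hT, hY, Matrix.mul_add, Matrix.mul_one, Matrix.add_mul, hWu.mul_ct, add_assoc,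
      add_self_mat hF, add_zero]
  rw [e]
  ext i l
  obtain rfl | rfl | rfl : i = 0 ∨ i = 1 ∨ i = 2 := by revert i; decide
  all_goals obtain rfl | rfl | rfl : l = 0 ∨ l = 1 ∨ l = 2 := by revert l; decide
  all_goals simp (config := { decide := true }) [piM, Matrix.add_apply, Matrix.one_apply, hT0, h01,
    ← hrow, h21, h22, h10, h20, h11, hF.add_self]

lemma exists_scalars {a b : Matrix K3 K3 F} (h : (a * a) ⊗ₖ (b * b) = 1) :
    ∃ c : F, c ≠ 0 ∧ a * a = c • 1 ∧ b * b = c⁻¹ • 1 := by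
  obtain ⟨A, hA⟩ : ∃ A, A = a * a := ⟨_, rfl⟩
  obtain ⟨B, hB⟩ : ∃ B, B = b * b := ⟨_, rfl⟩
  rw [← hA, ← hB] at h ⊢
  have e : ∀ i j k l, A i k * B j l = (1 : Matrix I9 I9 F) (i, j) (k, l) := fun i j k l => by
    rw [← h]; rfl
  have h00 := e 0 0 0 0
  rw [Matrix.one_apply_eq] at h00
  have hB0 : B 0 0 = (A 0 0)⁻¹ := eq_inv_of_mul_eq_one_right h00
  have hc : A 0 0 ≠ 0 := left_ne_zero_of_mul_eq_one h00
  refine ⟨A 0 0, hc, ?_, ?_⟩
  · ext i k
    have := e i 0 k 0
    rw [hB0, mul_inv_eq_iff_eq_mul₀ hc] at this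
    rw [this]
    by_cases hik : i = k <;> simp [Matrix.one_apply, hik]
  · ext j l
    have := e 0 j 0 l
    rw [mul_comm, ← eq_mul_inv_iff_mul_eq₀ hc] at this
    rw [this]
    by_cases hjl : j = l <;> simp [Matrix.one_apply, hjl]

variable {M : Matrix I9 I9 F → Prop}

/-- Involutions commuting with `tNine` have their centralisers in the normaliser. -/
lemma cent_invol (hF : Four ω) (hM : Ov ω M) (hns : NoTv M) {z : Matrix I9 I9 F} (hz : M z)
    (hzt : z * tNine = tNine * z) (hz2 : z * z = 1) (hz1 : z ≠ 1) {A : Matrix I9 I9 F} (hA : M A)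
    (hAz : A * z = z * A) : Nrm9 ω A := by
  have h3 : ∀ g : Matrix K3 K3 F, Uni g → Nrm3 ω g := fun g hg => uni_nrm3 hF hg
  obtain ⟨a₀, b₀, ha₀, hb₀, rfl⟩ := centT hF hM hns h3 hz hzt
  rw [kron_mul] at hz2
  obtain ⟨c, hc, hca, hcb⟩ := exists_scalars hz2
  have hc3 := hF.cube hc
  have hsmul : ∀ {d : F}, d ≠ 0 → ∀ {g : Matrix K3 K3 F}, Uni g → Uni (d • g) := by
    intro d hd g hg
    show ct (d • g) * (d • g) = 1
    rw [ct_smul, Matrix.smul_mul, Matrix.mul_smul, smul_smul, hg, ← pow_succ, hF.cube hd, one_smul]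
  obtain ⟨a, b, ha, hb, haa, hbb, hab⟩ : ∃ a b : Matrix K3 K3 F, Uni a ∧ Uni b ∧ a * a = 1 ∧
      b * b = 1 ∧ a₀ ⊗ₖ b₀ = a ⊗ₖ b := by
    refine ⟨c • a₀, c ^ 2 • b₀, hsmul hc ha₀, hsmul (pow_ne_zero _ hc) hb₀, ?_, ?_, ?_⟩
    · rw [Matrix.smul_mul, Matrix.mul_smul, hca, smul_smul, smul_smul,
        show c * c * c = 1 by linear_combination hc3, one_smul]
    · rw [Matrix.smul_mul, Matrix.mul_smul, hcb, smul_smul, smul_smul,
        show c ^ 2 * c ^ 2 * c⁻¹ = 1 by field_simp; linear_combination hc3, one_smul]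
    · rw [Matrix.smul_kronecker, Matrix.kronecker_smul, smul_smul,
        show c * c ^ 2 = 1 by linear_combination hc3, one_smul]
  rw [hab] at hz hz1 hAz
  -- a conjugation to a standard involution
  obtain ⟨u, u', hu, hu', hcases⟩ : ∃ u u' : Matrix K3 K3 F, Uni u ∧ Uni u' ∧
      ((u ⊗ₖ u') * (a ⊗ₖ b) * ct (u ⊗ₖ u') = tNine ∨
        (u ⊗ₖ u') * (a ⊗ₖ b) * ct (u ⊗ₖ u') = (1 : Matrix K3 K3 F) ⊗ₖ piM ∨
        (u ⊗ₖ u') * (a ⊗ₖ b) * ct (u ⊗ₖ u') = jNine) := by
    have e : ∀ u u' : Matrix K3 K3 F, (u ⊗ₖ u') * (a ⊗ₖ b) * ct (u ⊗ₖ u') =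
        (u * a * ct u) ⊗ₖ (u' * b * ct u') := fun u u' => by
      rw [show ct (u ⊗ₖ u') = ct u ⊗ₖ ct u' from ct_kronecker u u', kron_mul, kron_mul]
    rcases invol3 hF ha haa with rfl | ⟨u, hu, hua⟩ <;> rcases invol3 hF hb hbb with rfl | ⟨u', hu', hub⟩
    · exact absurd Matrix.one_kronecker_one hz1
    · exact ⟨1, u', Uni.one, hu', Or.inr (Or.inl (by rw [e, hub, ct_one, Matrix.mul_one, Matrix.mul_one]))⟩
    · exact ⟨u, 1, hu, Uni.one, Or.inl (by rw [e, hua, ct_one, Matrix.mul_one, Matrix.mul_one]; rfl)⟩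
    · exact ⟨u, u', hu, hu', Or.inr (Or.inr (by rw [e, hua, hub]; rfl))⟩
  obtain ⟨U, hU⟩ : ∃ U, U = u ⊗ₖ u' := ⟨_, rfl⟩
  rw [← hU] at hcases
  have hUu : Uni U := hU ▸ kron_uni hF hu hu'
  have hUM : M U := hU ▸ hM.kron_mem hF h3 hu hu'
  obtain ⟨B, hB⟩ : ∃ B, B = U * A * ct U := ⟨_, rfl⟩
  have hBM : M B := hB ▸ hM.mul _ _ (hM.mul _ _ hUM hA) (hM.star _ hUM)
  have hBz : B * (U * (a ⊗ₖ b) * ct U) = U * (a ⊗ₖ b) * ct U * B := by
    have h : ∀ P Q : Matrix I9 I9 F, U * P * ct U * (U * Q * ct U) = U * (P * Q) * ct U := fun P Q => by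
      rw [Matrix.mul_assoc (U * P), ← Matrix.mul_assoc (ct U), ← Matrix.mul_assoc (ct U), hUu,
        Matrix.one_mul]
      simp only [Matrix.mul_assoc]
    rw [hB, h, h, hAz]
  have hBN : Nrm9 ω B := by
    rcases hcases with e | e | e <;> rw [e] at hBz
    · obtain ⟨p, r, hp, hr, rfl⟩ := centT hF hM hns h3 hBM hBz
      exact Nrm9.kron (h3 p hp) (h3 r hr)
    · obtain ⟨C, hC⟩ : ∃ C, C = swM * B * swM := ⟨_, rfl⟩
      have hCM : M C := hC ▸ hM.mul _ _ (hM.mul _ _ (swM_mem hF hM) hBM) (swM_mem hF hM)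
      have hC' : C = sw B := by rw [hC, swM_mul, Matrix.mul_assoc, swM_sq, Matrix.mul_one]
      have hCt : C * tNine = tNine * C := by
        have := congrArg sw hBz
        rw [sw_mul, sw_mul, sw_kronecker] at this
        rw [hC']
        exact this
      obtain ⟨p, r, hp, hr, e'⟩ := centT hF hM hns h3 hCM hCt
      have : B = r ⊗ₖ p := by rw [← sw_sw B, ← hC', e', sw_kronecker]
      rw [this]
      exact Nrm9.kron (h3 r hr) (h3 p hp)
    · exact centJ hF hM hns h3 (fun g hg => exists_alJ hF hg) hBM hBz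
  have hUN : Nrm9 ω U := hU ▸ Nrm9.kron (h3 u hu) (h3 u' hu')
  have hUN' : Nrm9 ω (ct U) := by
    rw [hU, show ct (u ⊗ₖ u') = ct u ⊗ₖ ct u' from ct_kronecker u u']
    exact Nrm9.kron (h3 _ (hu.ct hF)) (h3 _ (hu'.ct hF))
  have : A = ct U * B * U := by
    rw [hB, ← Matrix.mul_assoc, ← Matrix.mul_assoc, hUu, Matrix.one_mul, Matrix.mul_assoc, hUu,
      Matrix.mul_one]
  rw [this]
  exact (hUN'.mul hBN).mul hUN

lemma P9_mem (hF : Four ω) (hM : Ov ω M) (v : W9) : M (P9 ω v) := by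
  have hP : ∀ a : K3 × K3, Uni (P3 ω a) := fun a => by
    show ct (P3 ω a) * P3 ω a = 1
    ext i k
    rw [Matrix.mul_apply, Finset.sum_eq_single (i + a.2)]
    · simp only [ct_apply, P3_apply, if_true, Matrix.one_apply, add_left_inj]
      by_cases h : i = k
      · rw [if_pos h, if_pos h, ← pow_succ, hF.cube (hF.om.wp_ne_zero _)]
      · rw [if_neg h, if_neg h, mul_zero]
    · intro j _ hj; simp [ct_apply, P3_apply, hj]
    · simp
  exact hM.kron_mem hF (fun g hg => uni_nrm3 hF hg) (hP v.1) (hP v.2)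

/-- No conjugate of the sign change centralises two weight operators which do not commute. -/
lemma no_pair (hF : Four ω) (hM : Ov ω M) {g x y : Matrix I9 I9 F} (hg : M g) (hx : M x) (hy : M y)
    (hxz : x * (g * jNine * ct g) = g * jNine * ct g * x)
    (hyz : y * (g * jNine * ct g) = g * jNine * ct g * y) {c : F} (hc : c ≠ 1)
    (e : x * y = c • (y * x)) : False := by
  have hgu := hM.uni _ hg
  have key : ∀ w : Matrix I9 I9 F, M w → w * (g * jNine * ct g) = g * jNine * ct g * w →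
      Cm ((ct g * w * g).submatrix eJ eJ) ∧ Uni ((ct g * w * g).submatrix eJ eJ) := by
    intro w hw hwz
    refine ⟨down_cm eJ ?_, down_uni eJ (hM.uni _ (hM.mul _ _ (hM.mul _ _ (hM.star _ hg) hw) hg))⟩
    rw [← jNine_eq]
    have h := congrArg (fun T => ct g * T * g) hwz
    simp only [Matrix.mul_assoc, show ct g * g = 1 from hgu, Matrix.mul_one] at h
    rw [← Matrix.mul_assoc (ct g) g, hgu, Matrix.one_mul] at h
    simp only [Matrix.mul_assoc]
    simpa only [Matrix.mul_one] using h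
  obtain ⟨hxc, hxu⟩ := key x hx hxz
  obtain ⟨hyc, hyu⟩ := key y hy hyz
  have hm : ∀ P Q : Matrix I9 I9 F, (ct g * P * g).submatrix eJ eJ * (ct g * Q * g).submatrix eJ eJ =
      (ct g * (P * Q) * g).submatrix eJ eJ := fun P Q => by
    rw [Matrix.submatrix_mul_equiv, Matrix.mul_assoc (ct g * P) g, ← Matrix.mul_assoc g,
      ← Matrix.mul_assoc g, hgu.mul_ct, Matrix.one_mul]
    simp only [Matrix.mul_assoc]
  have e' : alB ((ct g * x * g).submatrix eJ eJ) * alB ((ct g * y * g).submatrix eJ eJ) =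
      c • (alB ((ct g * y * g).submatrix eJ eJ) * alB ((ct g * x * g).submatrix eJ eJ)) := by
    rw [← alB_mul hF hxc hyc, ← alB_mul hF hyc hxc, hm, hm, e, Matrix.mul_smul, Matrix.smul_mul]
    ext i k
    simp [alB, mul_add]
  have hd := congrArg Matrix.det e'
  rw [Matrix.det_smul, Matrix.det_mul, Matrix.det_mul, Fintype.card_fin, hF.pow_four,
    mul_comm (Matrix.det (alB ((ct g * y * g).submatrix eJ eJ)))] at hd
  have hne : Matrix.det (alB ((ct g * x * g).submatrix eJ eJ)) *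
      Matrix.det (alB ((ct g * y * g).submatrix eJ eJ)) ≠ 0 := by
    have h1 := (alB_uni hF hxc hxu).det_cube hF
    have h2 := (alB_uni hF hyc hyu).det_cube hF
    exact mul_ne_zero (fun h => by simp [h] at h1) (fun h => by simp [h] at h2)
  exact hc (mul_eq_right₀ hne |>.1 hd.symm)

lemma sym9_add_right (u x y : W9) : sym9 u (x + y) = sym9 u x + sym9 u y := by
  simp only [sym9, sym, Prod.fst_add, Prod.snd_add]; ring

lemma exists_sym9 : ∀ u : W9, u ≠ 0 → ∃ x, sym9 u x ≠ 0 := by decide +kernel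

/-- A normalising conjugate of the sign change inverts the weights. -/
lemma conj_neg (hF : Four ω) (hM : Ov ω M) {g z : Matrix I9 I9 F} (hg : M g)
    (hz : z = g * jNine * ct g) (hzN : Nrm9 ω z) (v : W9) :
    ∃ c : F, c ≠ 0 ∧ z * P9 ω v = c • (P9 ω (-v) * z) := by
  have hω := hF.om
  have hgu := hM.uni _ hg
  have hjj : (jNine : Matrix I9 I9 F) * jNine = 1 := by
    have hp : (piM : Matrix K3 K3 F) * piM = 1 := by
      ext i k
      rw [Matrix.mul_apply, Finset.sum_eq_single (-i)]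
      · simp [piM, Matrix.one_apply, neg_add_eq_zero]
      · intro j _ hj
        simp only [piM, Matrix.of_apply]
        rw [if_neg (fun h : i + j = 0 => hj (eq_neg_of_add_eq_zero_right h)), zero_mul]
      · simp
    rw [jNine, kron_mul, hp, Matrix.one_kronecker_one]
  have hzz : z * z = 1 := by
    rw [hz, Matrix.mul_assoc (g * jNine), ← Matrix.mul_assoc (ct g), ← Matrix.mul_assoc (ct g), hgu,
      Matrix.one_mul, ← Matrix.mul_assoc, Matrix.mul_assoc g, hjj, Matrix.mul_one, hgu.mul_ct]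
  have hzu : IsUnit z := IsUnit.of_mul_eq_one z hzz
  choose T k hk hT using hzN
  -- `z` fixes the sums
  have hsum : ∀ a, ∃ d : F, z * P9 ω (a + T a) = d • (P9 ω (a + T a) * z) := by
    intro a
    obtain ⟨b, hb⟩ : ∃ b, b = T a := ⟨_, rfl⟩
    have h1 : z * P9 ω b = (k a)⁻¹ • (P9 ω a * z) := by
      have h := congrArg (fun X => z * X * z) (hT a)
      simp only [Matrix.mul_smul, Matrix.smul_mul, ← Matrix.mul_assoc, hzz, Matrix.one_mul,
        ← hb] at h
      rw [Matrix.mul_assoc (z * P9 ω b), hzz, Matrix.mul_one] at h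
      rw [h, smul_smul, inv_mul_cancel₀ (hk a), one_smul]
    have hP := P9_mul (ω := ω) hω a b
    have hP' := P9_mul (ω := ω) hω b a
    have h2 : z * (P9 ω a * P9 ω b) = (k a * (k a)⁻¹) • (P9 ω b * P9 ω a * z) := by
      rw [← Matrix.mul_assoc, hT, ← hb, Matrix.smul_mul, Matrix.mul_assoc, h1, Matrix.mul_smul,
        smul_smul, Matrix.mul_assoc]
    rw [hP, hP', Matrix.mul_smul, Matrix.smul_mul, smul_smul, add_comm b a] at h2
    rw [← hb]
    exact ⟨_, by
      rw [← inv_smul_smul₀ (hω.wp_ne_zero (-(b.1.1 * a.1.2) + -(b.2.1 * a.2.2))) (z * P9 ω (a + b)),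
        h2, smul_smul]⟩
  have hfix : ∀ a, z * P9 ω (a + T a) = P9 ω (a + T a) * z := by
    intro a
    obtain ⟨d, hd⟩ := hsum a
    have hd2 : d * d = 1 := by
      have h : P9 ω (a + T a) = (d * d) • P9 ω (a + T a) := by
        calc P9 ω (a + T a) = z * (z * P9 ω (a + T a)) := by
              rw [← Matrix.mul_assoc, hzz, Matrix.one_mul]
          _ = d • (z * P9 ω (a + T a) * z) := by
              conv_lhs => rw [hd]
              rw [Matrix.mul_smul, Matrix.mul_assoc]
          _ = (d * d) • P9 ω (a + T a) := by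
              rw [hd, Matrix.smul_mul, smul_smul, Matrix.mul_assoc, hzz, Matrix.mul_one]
      exact (smul_left_injective F (isUnit_P9 hω _).ne_zero ((one_smul F _).trans h)).symm
    have hd1 : d = 1 := hF.eq_add ((pow_eq_zero_iff two_ne_zero).1 (show (d + 1) ^ 2 = 0 by
      linear_combination hd2 + (d + 1) * hF.two))
    rw [hd, hd1, one_smul]
  suffices hv : v + T v = 0 by
    exact ⟨k v, hk v, by rw [hT, ← eq_neg_of_add_eq_zero_right hv]⟩
  by_contra hv
  obtain ⟨u, hu⟩ : ∃ u, u = v + T v := ⟨_, rfl⟩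
  rw [← hu] at hv
  obtain ⟨x, hx⟩ := exists_sym9 u hv
  -- `z` preserves the form
  have hsym : sym9 u (T x) = sym9 u x := by
    have l : z * (P9 ω u * P9 ω x) = k x • (P9 ω u * P9 ω (T x) * z) := by
      rw [← Matrix.mul_assoc, hu, hfix, ← hu, Matrix.mul_assoc, hT, Matrix.mul_smul, Matrix.mul_assoc]
    have r : z * (P9 ω x * P9 ω u) = k x • (P9 ω (T x) * P9 ω u * z) := by
      rw [← Matrix.mul_assoc, hT, Matrix.smul_mul, Matrix.mul_assoc, hu, hfix, Matrix.mul_assoc]
    rw [P9_comm hω u x, Matrix.mul_smul, r, P9_comm hω u (T x), Matrix.smul_mul, smul_smul,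
      smul_smul, mul_comm (k x)] at l
    exact (hω.wp_inj (mul_right_cancel₀ (hk x) (smul_left_injective F
      (((isUnit_P9 hω (T x)).mul (isUnit_P9 hω u)).mul hzu).ne_zero l))).symm
  refine no_pair hF hM hg (P9_mem hF hM u) (P9_mem hF hM (x + T x)) (by rw [← hz, hu]; exact (hfix v).symm)
    (by rw [← hz]; exact (hfix x).symm) ?_ (P9_comm hω u (x + T x))
  intro e
  apply hx
  have h0 : sym9 u (x + T x) = 0 := hω.wp_inj (e.trans wp_zero.symm)
  rw [sym9_add_right, hsym] at h0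
  have hd : ∀ s : K3, s + s = 0 → s = 0 := by decide
  exact hd _ h0

/-- An overgroup without transvections normalises the weights. -/
theorem nrm_of_noTv (hF : Four ω) (hM : Ov ω M) (hns : NoTv M) {A : Matrix I9 I9 F} (hA : M A) :
    Nrm9 ω A := by
  classical
  haveI := hF.finite
  have hω := hF.om
  have h3 : ∀ g : Matrix K3 K3 F, Uni g → Nrm3 ω g := fun g hg => uni_nrm3 hF hg
  have hjM : M jNine := hM.kron_mem hF h3 (piM_uni hF) (piM_uni hF)
  have htM : M tNine := hM.kron_mem hF h3 (piM_uni hF) Uni.one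
  by_contra hAN
  -- some conjugate of the sign change is outside
  obtain ⟨g, hg, hgN⟩ : ∃ g, M g ∧ ¬ Nrm9 ω (g * jNine * ct g) := by
    by_contra hc
    push Not at hc
    refine hAN fun v => ?_
    obtain ⟨w, hw⟩ : ∃ w, w = -v := ⟨_, rfl⟩
    have hAu := hM.uni _ hA
    have hAP := hM.mul _ _ hA (P9_mem hF hM w)
    obtain ⟨z₁, hz₁⟩ : ∃ z, z = A * jNine * ct A := ⟨_, rfl⟩
    obtain ⟨z₂, hz₂⟩ : ∃ z, z = A * P9 ω w * jNine * ct (A * P9 ω w) := ⟨_, rfl⟩
    have hn₁ := hc A hA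
    have hn₂ := hc _ hAP
    have hw0 : P9 ω w * P9 ω (-w) = wp ω (-((-w).1.1 * w.1.2) + -((-w).2.1 * w.2.2)) • (1 : Matrix I9 I9 F) := by
      rw [P9_mul hω, add_neg_cancel, P9_zero]
    obtain ⟨k₀, hk₀⟩ : ∃ k, k = wp ω (-((-w).1.1 * w.1.2) + -((-w).2.1 * w.2.2)) := ⟨_, rfl⟩
    rw [← hk₀] at hw0
    have hctP : ct (P9 ω w) = k₀⁻¹ • P9 ω (-w) := by
      calc ct (P9 ω w) = ct (P9 ω w) * (k₀⁻¹ • (P9 ω w * P9 ω (-w))) := by
            rw [hw0, smul_smul, inv_mul_cancel₀ (hk₀ ▸ hω.wp_ne_zero _), one_smul, Matrix.mul_one]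
        _ = k₀⁻¹ • P9 ω (-w) := by
            rw [Matrix.mul_smul, ← Matrix.mul_assoc, hM.uni _ (P9_mem hF hM w), Matrix.one_mul]
    have hjj : (jNine : Matrix I9 I9 F) * jNine = 1 := by
      have hp := hM.uni _ hjM
      unfold Uni at hp
      rwa [show ct (jNine : Matrix I9 I9 F) = jNine by
        rw [jNine, show ct (piM ⊗ₖ piM : Matrix I9 I9 F) = ct piM ⊗ₖ ct piM from ct_kronecker _ _,
          show ct (piM : Matrix K3 K3 F) = piM by
            ext i k; simp only [ct_apply, piM, Matrix.of_apply, add_comm k i]; split_ifs <;> simp]] at hp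
    have hprod : z₂ * z₁ = (k₀⁻¹ * wp ω (-(w.1.1 * w.1.2) + -(w.2.1 * w.2.2))) • (A * P9 ω v * ct A) := by
      have e2 : P9 ω w * P9 ω w = wp ω (-(w.1.1 * w.1.2) + -(w.2.1 * w.2.2)) • P9 ω v := by
        rw [P9_mul hω]
        congr 2
        have : ∀ s : W9, -s + -s = s := by decide +kernel
        rw [hw, this]
      calc z₂ * z₁ = A * (P9 ω w * jNine * (ct (P9 ω w) * jNine)) * ct A := by
            rw [hz₁, hz₂, ct_mul hF]
            simp only [Matrix.mul_assoc]
            rw [← Matrix.mul_assoc (ct A) A, hAu, Matrix.one_mul]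
        _ = _ := by
            rw [hctP, Matrix.smul_mul, Matrix.mul_smul, Matrix.mul_assoc (P9 ω w) jNine,
              ← Matrix.mul_assoc jNine (P9 ω (-w)), jNine_P9, neg_neg, Matrix.mul_assoc (P9 ω w) jNine,
              hjj, Matrix.mul_one, e2, smul_smul, Matrix.mul_smul, Matrix.smul_mul]
    have hz₁M : M z₁ := hz₁ ▸ hM.mul _ _ (hM.mul _ _ hA hjM) (hM.star _ hA)
    have hz₂M : M z₂ := hz₂ ▸ hM.mul _ _ (hM.mul _ _ hAP hjM) (hM.star _ hAP)
    have hu : IsUnit (z₂ * z₁) := IsUnit.of_mul_eq_one_right _ (hM.uni _ (hM.mul _ _ hz₂M hz₁M))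
    obtain ⟨s, e, hs, he⟩ := exists_P9_of_id hω hu (fun x => by
      obtain ⟨c₁, -, e₁⟩ := conj_neg hF hM hA hz₁ (hz₁ ▸ hn₁) x
      obtain ⟨c₂, -, e₂⟩ := conj_neg hF hM hAP hz₂ (hz₂ ▸ hn₂) (-x)
      refine ⟨c₁ * c₂, ?_⟩
      rw [Matrix.mul_assoc, e₁, Matrix.mul_smul, ← Matrix.mul_assoc, e₂, neg_neg, Matrix.smul_mul,
        smul_smul, Matrix.mul_assoc])
    have hk : k₀⁻¹ * wp ω (-(w.1.1 * w.1.2) + -(w.2.1 * w.2.2)) ≠ 0 :=
      mul_ne_zero (inv_ne_zero (hk₀ ▸ hω.wp_ne_zero _)) (hω.wp_ne_zero _)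
    refine ⟨e, _, mul_ne_zero (inv_ne_zero hk) hs, ?_⟩
    have h := congrArg (fun X => (k₀⁻¹ * wp ω (-(w.1.1 * w.1.2) + -(w.2.1 * w.2.2)))⁻¹ • (X * A))
      (hprod.symm.trans he)
    simp only [Matrix.smul_mul, smul_smul, inv_mul_cancel₀ hk, one_smul, Matrix.mul_assoc,
      show ct A * A = 1 from hAu, Matrix.mul_one] at h
    exact h
  -- the dihedral group of the two involutions
  have hgu := hM.uni _ hg
  obtain ⟨k, hk⟩ : ∃ k, k = g * jNine * ct g := ⟨_, rfl⟩
  have hkM : M k := hk ▸ hM.mul _ _ (hM.mul _ _ hg hjM) (hM.star _ hg)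
  have htt : (tNine : Matrix I9 I9 F) * tNine = 1 := by
    rw [tNine, kron_mul, Matrix.one_mul, show (piM : Matrix K3 K3 F) * piM = 1 from ?_, Matrix.one_kronecker_one]
    have h := piM_uni hF
    unfold Uni at h
    rwa [show ct (piM : Matrix K3 K3 F) = piM by
      ext i l; simp only [ct_apply, piM, Matrix.of_apply, add_comm l i]; split_ifs <;> simp] at h
  have hkk : k * k = 1 := by
    have h := hM.uni _ hkM
    have hj : ct (jNine : Matrix I9 I9 F) = jNine := by
      rw [jNine, show ct (piM ⊗ₖ piM : Matrix I9 I9 F) = ct piM ⊗ₖ ct piM from ct_kronecker _ _,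
        show ct (piM : Matrix K3 K3 F) = piM by
          ext i l; simp only [ct_apply, piM, Matrix.of_apply, add_comm l i]; split_ifs <;> simp]
    unfold Uni at h
    rwa [show ct k = k by rw [hk, ct_mul hF, ct_mul hF, ct_ct hF, hj, Matrix.mul_assoc]] at h
  let T : GL I9 F := ⟨tNine, tNine, htt, htt⟩
  let K : GL I9 F := ⟨k, k, hkk, hkk⟩
  let X : GL I9 F := T * K
  have hT : T * T = 1 := Units.ext htt
  have hK : K * K = 1 := Units.ext hkk
  have hXM : ∀ m : ℕ, M (((X ^ m : GL I9 F)) : Matrix I9 I9 F) := by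
    intro m
    induction m with
    | zero => simpa using hM.one
    | succ m ih =>
      rw [pow_succ, Units.val_mul]
      exact hM.mul _ _ ih (hM.mul _ _ htM hkM)
  have hTX : ∀ m : ℕ, T * X ^ m = (X ^ m)⁻¹ * T := by
    intro m
    have h1 : T * X * T⁻¹ = X⁻¹ := by
      rw [_root_.mul_inv_rev, inv_eq_of_mul_eq_one_right hK, inv_eq_of_mul_eq_one_right hT, ← mul_assoc, hT,
        one_mul]
    have h2 : T * X ^ m * T⁻¹ = (X ^ m)⁻¹ := by rw [← conj_pow, h1, inv_pow]
    calc T * X ^ m = T * X ^ m * T⁻¹ * T := by rw [inv_mul_cancel_right]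
      _ = _ := by rw [h2]
  have hKX : K = T * X := by rw [← mul_assoc, hT, one_mul]
  rcases Nat.even_or_odd (orderOf X) with ⟨m, hm⟩ | ⟨m, hm⟩
  · -- a central involution
    have hpos : 0 < orderOf X := orderOf_pos X
    obtain ⟨C, hC⟩ : ∃ C, C = X ^ m := ⟨_, rfl⟩
    have hC2 : C * C = 1 := by rw [hC, ← pow_add, ← hm, pow_orderOf_eq_one]
    have hCinv : C⁻¹ = C := inv_eq_of_mul_eq_one_right hC2
    have hC1 : C ≠ 1 := fun h => by
      have := Nat.le_of_dvd (by omega) (orderOf_dvd_of_pow_eq_one (hC.symm.trans h))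
      omega
    have hCT : C * T = T * C := by rw [hC, hTX m, ← hC, hCinv]
    have hCK : K * C = C * K := by
      rw [hKX, mul_assoc, hC, (Commute.self_pow X m).eq, ← mul_assoc, ← hC, ← hCT, mul_assoc]
    refine hgN (cent_invol hF hM hns (z := (C : Matrix I9 I9 F)) (by rw [hC]; exact hXM m) ?_ ?_ ?_
      (hk ▸ hkM) ?_)
    · exact congrArg Units.val hCT
    · exact congrArg Units.val hC2
    · exact fun h => hC1 (Units.ext h)
    · rw [← hk]; exact congrArg Units.val hCK
  · -- the two involutions are conjugate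
    obtain ⟨Y, hY⟩ : ∃ Y, Y = X ^ (m + 1) := ⟨_, rfl⟩
    have hY2 : Y * Y = X := by
      rw [hY, ← pow_add, show m + 1 + (m + 1) = orderOf X + 1 by omega, pow_succ, pow_orderOf_eq_one,
        one_mul]
    have hK' : K = Y⁻¹ * T * Y := by
      rw [hKX, ← hY2, ← mul_assoc, hY, hTX]
    have hT' : T = Y * K * Y⁻¹ := by rw [hK']; group
    have hYM : M (Y : Matrix I9 I9 F) := by rw [hY]; exact hXM _
    obtain ⟨h, hh⟩ : ∃ h, h = (Y : Matrix I9 I9 F) * g := ⟨_, rfl⟩
    have hhM : M h := hh ▸ hM.mul _ _ hYM hg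
    have hYinv : ((Y⁻¹ : GL I9 F) : Matrix I9 I9 F) = ct (Y : Matrix I9 I9 F) :=
      Units.inv_eq_of_mul_eq_one_left (hM.uni _ hYM)
    have ht : (tNine : Matrix I9 I9 F) = h * jNine * ct h := by
      have := congrArg Units.val hT'
      rw [Units.val_mul, Units.val_mul, hYinv] at this
      rw [hh, ct_mul hF, show (tNine : Matrix I9 I9 F) = (T : Matrix I9 I9 F) from rfl, this]
      show (Y : Matrix I9 I9 F) * k * ct (Y : Matrix I9 I9 F) = _
      rw [hk]
      simp only [Matrix.mul_assoc]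
    have hcomm : ∀ a : K3 × K3, P9 ω (0, a) * tNine = tNine * P9 ω (0, a) := fun a => by
      simp only [P9, tNine, kron_mul, P3_zero, Matrix.one_mul, Matrix.mul_one]
    refine no_pair hF hM hhM (P9_mem hF hM (0, (1, 0))) (P9_mem hF hM (0, (0, 1)))
      (by rw [← ht]; exact hcomm _) (by rw [← ht]; exact hcomm _) ?_
      (P9_comm hω (0, (1, 0)) (0, (0, 1)))
    intro e
    have h0 : sym9 ((0, (1, 0)) : W9) (0, (0, 1)) = 0 := hω.wp_inj (e.trans wp_zero.symm)
    exact absurd h0 (by decide)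

end Cfsg.Agent.CSixNineTwo
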