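import Cfsg.Agent.CSixNineTwo.Herm

/-!
A set of hermitian matrices over the field of four elements invariant under the unitary group and
closed under sums consists of scalars or contains a matrix of rank one.
-/

set_option autoImplicit false
set_option linter.unusedSectionVars false

namespace Cfsg.Agent.CSixNineTwo

open Matrix Cfsg.Agent.CSixNine

variable {F : Type*} [Field F] {ι : Type*} [Fintype ι] [DecidableEq ι] {ω : F}

/-- A hermitian matrix supported on one pair of indices. -/
def prm (i k : ι) (x : F) : Matrix ι ι F :=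
  Matrix.of fun a b => if a = i ∧ b = k then x else if a = k ∧ b = i then x ^ 2 else 0

lemma diagonal_conj_apply (d : ι → F) (Z : Matrix ι ι F) (a b : ι) :
    (Matrix.diagonal d * Z * ct (Matrix.diagonal d)) a b = d a * d b ^ 2 * Z a b := by
  have e : ct (Matrix.diagonal d) = Matrix.diagonal fun i => d i ^ 2 := by
    ext u v
    by_cases h : u = v
    · subst h; simp [ct_apply]
    · simp [ct_apply, h, Ne.symm h]
  rw [e, Matrix.mul_diagonal, Matrix.diagonal_mul]
  ring

lemma diagonal_uni (hF : Four ω) {d : ι → F} (hd : ∀ i, d i ≠ 0) : Uni (Matrix.diagonal d) := by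
  show ct (Matrix.diagonal d) * Matrix.diagonal d = 1
  ext i k
  by_cases h : i = k
  · subst h
    simp [Matrix.mul_diagonal, ct_apply, ← pow_succ, hF.cube (hd i)]
  · simp [Matrix.mul_diagonal, ct_apply, h, Ne.symm h]

lemma ones3_mul_apply (Z : Matrix ι ι F) {i k l : ι} (hik : i ≠ k) (hil : i ≠ l) (hkl : k ≠ l)
    (b : ι) : ((ones3 i k l : Matrix ι ι F) * Z) i b = Z i b + Z k b + Z l b := by
  rw [Matrix.mul_apply, ← Finset.sum_subset (Finset.subset_univ ({i, k, l} : Finset ι))]
  · rw [Finset.sum_insert (by simp [hik, hil]), Finset.sum_insert (by simp [hkl]),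
      Finset.sum_singleton]
    simp [ones3]
    ring
  · intro j _ hj
    simp only [Finset.mem_insert, Finset.mem_singleton] at hj
    simp [ones3, hj]

lemma mul_ones3_apply (Z : Matrix ι ι F) {i k l : ι} (hik : i ≠ k) (hil : i ≠ l) (hkl : k ≠ l)
    (a : ι) {b : ι} (hb : b = i ∨ b = k ∨ b = l) :
    (Z * (ones3 i k l : Matrix ι ι F)) a b = Z a i + Z a k + Z a l := by
  rw [Matrix.mul_apply, ← Finset.sum_subset (Finset.subset_univ ({i, k, l} : Finset ι))]
  · rw [Finset.sum_insert (by simp [hik, hil]), Finset.sum_insert (by simp [hkl]),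
      Finset.sum_singleton]
    simp [ones3, hb]
    ring
  · intro j _ hj
    simp only [Finset.mem_insert, Finset.mem_singleton] at hj
    simp [ones3, hj]

/-- An entry of a conjugate under a reflection. -/
lemma refl3_conj_apply (hF : Four ω) (Z : Matrix ι ι F) {i k l : ι} (hik : i ≠ k) (hil : i ≠ l)
    (hkl : k ≠ l) {b : ι} (hb : b = i ∨ b = k ∨ b = l) :
    (refl3 ω i k l * Z * ct (refl3 ω i k l)) i b =
      Z i b + ω ^ 2 * (Z i b + Z k b + Z l b) + ω * (Z i i + Z i k + Z i l) +
        (Z i i + Z i k + Z i l + Z k i + Z k k + Z k l + Z l i + Z l k + Z l l) := by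
  rw [ct_refl3 hF, refl3_eq]
  simp only [add_mul, mul_add, one_mul, mul_one, smul_mul_assoc, mul_smul_comm, smul_smul,
    Matrix.add_apply, Matrix.smul_apply, smul_eq_mul, mul_ones3_apply _ hik hil hkl _ hb,
    ones3_mul_apply _ hik hil hkl]
  linear_combination (Z i i + Z i k + Z i l + Z k i + Z k k + Z k l + Z l i + Z l k + Z l l) * hF.om.cube

lemma dcoef (hF : Four ω) (a b j : ι) :
    (if a = j then ω else (1 : F)) * (if b = j then ω else 1) ^ 2 + 1 =
      if a = j then (if b = j then 0 else ω ^ 2) else (if b = j then ω else 0) := by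
  split_ifs
  · linear_combination hF.om.cube + hF.two
  · linear_combination hF.om.eqn - ω ^ 2 * hF.two
  · linear_combination hF.om.eqn - ω * hF.two
  · linear_combination hF.two

lemma pick_eq (hF : Four ω) (W : Matrix ι ι F) {i k : ι} (hik : i ≠ k) (hs : W i k ^ 2 = W k i) :
    prm i k (W i k) = Matrix.of fun a b =>
      ((if a = k then ω else 1) * (if b = k then ω else 1) ^ 2 + 1) *
        (((if a = i then ω else 1) * (if b = i then ω else 1) ^ 2 + 1) * W a b) := by
  ext a b
  simp only [prm, Matrix.of_apply, dcoef hF]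
  by_cases hai : a = i
  · subst hai
    by_cases hbk : b = k
    · subst hbk
      simp [hik, hik.symm]
      linear_combination (-(W a b)) * hF.om.cube
    · by_cases hbi : b = a <;> simp [hik, hik.symm, hbk, hbi]
  · by_cases hak : a = k
    · subst hak
      by_cases hbi : b = i
      · subst hbi
        simp [hik, hik.symm, hs]
        linear_combination (-(W a b)) * hF.om.cube
      · by_cases hbk : b = a <;> simp [hik, hik.symm, hbk, hbi]
    · by_cases hbk : b = k
      · subst hbk; simp [hai, hak, hik, hik.symm]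
      · simp [hai, hak, hbk]

lemma prm_scale (hF : Four ω) {i k : ι} (hik : i ≠ k) (x : F) (a b : ι) :
    prm i k (ω * x) a b = (if a = i then ω else 1) * (if b = i then ω else 1) ^ 2 * prm i k x a b := by
  simp only [prm, Matrix.of_apply]
  by_cases h1 : a = i ∧ b = k
  · simp [h1.1, h1.2, hik.symm]
  · by_cases h2 : a = k ∧ b = i
    · simp [h2.1, h2.2, hik, hik.symm, mul_pow]
    · simp [h1, h2]

lemma prm_symm (hF : Four ω) {i k : ι} (hik : i ≠ k) (y : F) :
    prm k i y = prm i k (y ^ 2) := by
  ext a b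
  simp only [prm, Matrix.of_apply, hF.sq_sq]
  by_cases h1 : a = k ∧ b = i
  · simp [h1.1, h1.2, hik, hik.symm]
  · simp [h1]

lemma ct_prm (hF : Four ω) {i k : ι} (hik : i ≠ k) (x : F) : ct (prm i k x) = prm i k x := by
  ext a b
  simp only [ct_apply, prm, Matrix.of_apply]
  by_cases h1 : a = i ∧ b = k
  · simp [h1.1, h1.2, hik, hik.symm, hF.sq_sq]
  · by_cases h2 : a = k ∧ b = i
    · simp [h2.1, h2.2, hik, hik.symm]
    · simp [h1, h2, and_comm (a := b = i), and_comm (a := b = k)]

lemma diag_case (hF : Four ω) {x y z : F} (hx : x = 0 ∨ x = 1) (hy : y = 0 ∨ y = 1) (hz : z = 0 ∨ z = 1)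
    (hne : x ≠ y) : ω ^ 2 * y + ω * x + (x + y + z) ≠ 0 := by
  have hω0 := hF.om.ne_zero
  rcases hx with rfl | rfl <;> rcases hy with rfl | rfl <;> rcases hz with rfl | rfl <;> intro h
  all_goals first
    | exact hne rfl
    | exact hω0 (by linear_combination h)
    | exact hω0 (by linear_combination h - hF.two)
    | exact hω0 (by linear_combination -h + hF.om.eqn)
    | exact hF.om.ne_one (by linear_combination -h + hF.om.eqn)
    | exact pow_ne_zero 2 hω0 (by linear_combination h)
    | exact pow_ne_zero 2 hω0 (by linear_combination h - hF.two)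
    | exact pow_ne_zero 2 hω0 (by linear_combination -h + hF.om.eqn)

/-- Nothing but scalars, unless there is a matrix of rank one. -/
theorem herm_trap (hF : Four ω) {S : Matrix ι ι F → Prop} (hcard : 3 ≤ Fintype.card ι)
    (hadd : ∀ A B, S A → S B → S (A + B)) (hherm : ∀ Z, S Z → ct Z = Z) (h1 : S 1)
    (hinv : ∀ g Z, Uni g → S Z → S (g * Z * ct g))
    (hone : ∀ u : ι → F, u ≠ 0 → ¬ S (Matrix.of fun a b => u a * u b ^ 2))
    {Z : Matrix ι ι F} (hZ : S Z) : Z = 0 ∨ Z = 1 := by
  classical
  have hω0 := hF.om.ne_zero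
  have h0 : S 0 := by
    have := hadd _ _ h1 h1
    rwa [add_self_mat hF] at this
  have hsym : ∀ {W : Matrix ι ι F}, S W → ∀ a b, W a b ^ 2 = W b a := fun hW a b =>
    congrFun (congrFun (hherm _ hW) b) a
  have hdiff : ∀ {W : Matrix ι ι F}, S W → ∀ j : ι,
      S (Matrix.of fun a b => ((if a = j then ω else 1) * (if b = j then ω else 1) ^ 2 + 1) * W a b) := by
    intro W hW j
    have hd : ∀ i, (if i = j then ω else (1 : F)) ≠ 0 := fun i => by
      split
      · exact hω0
      · exact one_ne_zero
    convert hadd _ _ (hinv _ _ (diagonal_uni hF hd) hW) hW using 1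
    ext a b
    rw [Matrix.of_apply, Matrix.add_apply, diagonal_conj_apply]
    ring
  have hpick : ∀ {W : Matrix ι ι F}, S W → ∀ i k, i ≠ k → S (prm i k (W i k)) := by
    intro W hW i k hik
    rw [pick_eq hF W hik (hsym hW i k)]
    exact hdiff (hdiff hW i) k
  have hscale : ∀ i k, i ≠ k → ∀ x : F, S (prm i k x) → S (prm i k (ω * x)) := by
    intro i k hik x hx
    have hd : ∀ j, (if j = i then ω else (1 : F)) ≠ 0 := fun j => by
      split
      · exact hω0
      · exact one_ne_zero
    convert hinv _ _ (diagonal_uni hF hd) hx using 1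
    ext a b
    rw [diagonal_conj_apply, prm_scale hF hik]
  have hevery : ∀ i k, i ≠ k → ∀ x : F, x ≠ 0 → S (prm i k x) → ∀ y : F, S (prm i k y) := by
    intro i k hik x hx0 hx y
    rcases eq_or_ne y 0 with rfl | hy
    · convert h0 using 1
      ext a b; simp [prm]
    have h3 : (y / x) ^ 3 = 1 := hF.cube (div_ne_zero hy hx0)
    obtain ⟨t, ht⟩ := hF.om.exists_wp h3
    have : y = ω ^ t.val * x := by rw [show ω ^ t.val = wp ω t from rfl, ← ht, div_mul_cancel₀ _ hx0]
    rw [this]
    generalize t.val = n
    induction n with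
    | zero => simpa using hx
    | succ n ih => rw [pow_succ', mul_assoc]; exact hscale i k hik _ ih
  have hthird : ∀ i k : ι, ∃ l, l ≠ i ∧ l ≠ k := fun i k => by
    by_contra hc
    push Not at hc
    have : Finset.univ ⊆ ({i, k} : Finset ι) := fun l _ => by
      by_cases h : l = i
      · simp [h]
      · simp [hc l h]
    have := (Finset.card_le_card this).trans Finset.card_le_two
    rw [Finset.card_univ] at this
    omega
  -- one entry off the diagonal gives all
  have hall : ∀ {i k : ι}, i ≠ k → (∀ y, S (prm i k y)) → ∀ {l : ι}, l ≠ i → l ≠ k → ∀ y, S (prm i l y) := by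
    intro i k hik hy l hli hlk
    have hS := hinv _ _ (refl3_uni hF hik (Ne.symm hli) (Ne.symm hlk)) (hy 1)
    refine hevery i l (Ne.symm hli) _ ?_ (hpick hS i l (Ne.symm hli))
    rw [refl3_conj_apply hF _ hik (Ne.symm hli) (Ne.symm hlk) (Or.inr (Or.inr rfl))]
    simp only [prm, Matrix.of_apply]
    simp [hik, Ne.symm hik, hli, hlk, Ne.symm hli, Ne.symm hlk]
    intro h
    exact hω0 (by linear_combination h - hF.two)
  have hsymm : ∀ {i k : ι}, i ≠ k → (∀ y, S (prm i k y)) → ∀ y, S (prm k i y) := by
    intro i k hik hy y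
    rw [prm_symm hF hik]
    exact hy _
  have hspread : ∀ {i k : ι}, i ≠ k → (∀ y, S (prm i k y)) → ∀ a b, a ≠ b → ∀ y, S (prm a b y) := by
    intro i k hik hy a b hab
    have hrow : ∀ l, l ≠ i → ∀ y, S (prm i l y) := fun l hl => by
      by_cases hlk : l = k
      · exact hlk ▸ hy
      · exact hall hik hy hl hlk
    by_cases hai : a = i
    · exact hai ▸ hrow b (fun e => hab (hai.trans e.symm))
    have h2 := hsymm (Ne.symm hai) (hrow a hai)
    by_cases hbi : b = i
    · exact hbi ▸ h2
    · exact hall hai h2 (Ne.symm hab) hbi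
  suffices hno : ∀ i k, i ≠ k → ¬ ∀ y, S (prm i k y) by
    have hoff : ∀ i k, i ≠ k → Z i k = 0 := fun i k hik => by
      by_contra h
      exact hno i k hik (hevery i k hik _ h (hpick hZ i k hik))
    have hdd : ∀ i, Z i i = 0 ∨ Z i i = 1 := fun i => by
      rcases eq_or_ne (Z i i) 0 with h | h
      · exact Or.inl h
      · exact Or.inr (mul_left_cancel₀ h (by rw [mul_one, ← pow_two, hsym hZ]))
    have hconst : ∀ i k, Z i i = Z k k := by
      intro i k
      by_contra hne
      have hik : i ≠ k := fun e => hne (by rw [e])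
      obtain ⟨l, hli, hlk⟩ := hthird i k
      have hS := hinv _ _ (refl3_uni hF hik (Ne.symm hli) (Ne.symm hlk)) hZ
      refine hno i k hik (hevery i k hik _ ?_ (hpick hS i k hik))
      rw [refl3_conj_apply hF _ hik (Ne.symm hli) (Ne.symm hlk) (Or.inr (Or.inl rfl))]
      simp only [hoff i k hik, hoff k i hik.symm, hoff i l (Ne.symm hli), hoff l i hli,
        hoff k l (Ne.symm hlk), hoff l k hlk, add_zero, zero_add]
      intro h
      exact diag_case hF (hdd i) (hdd k) (hdd l) hne (by linear_combination h)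
    rcases isEmpty_or_nonempty ι with he | ⟨⟨i₀⟩⟩
    · exact Or.inl (Matrix.ext fun a => he.elim a)
    refine (hdd i₀).imp (fun h => ?_) fun h => ?_ <;> ext a b <;> by_cases hab : a = b
    · subst hab; rw [hconst a i₀, h]; rfl
    · rw [hoff a b hab]; rfl
    · subst hab; rw [hconst a i₀, h, Matrix.one_apply_eq]
    · rw [hoff a b hab, Matrix.one_apply_ne hab]
  intro i k hik hy
  have hE := hspread hik hy
  -- every zero diagonal hermitian matrix
  have hzero : ∀ n : ℕ, ∀ W : Matrix ι ι F, ct W = W → (∀ a, W a a = 0) →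
      (Finset.univ.filter fun p : ι × ι => W p.1 p.2 ≠ 0).card ≤ n → S W := by
    intro n
    induction n with
    | zero =>
      intro W _ _ hW
      convert h0 using 1
      ext a b
      have hm : (a, b) ∉ Finset.univ.filter fun p : ι × ι => W p.1 p.2 ≠ 0 := by
        rw [Finset.card_eq_zero.1 (Nat.le_zero.1 hW)]; simp
      simpa using hm
    | succ n ih =>
      intro W hWh hWd hW
      by_cases hle : (Finset.univ.filter fun p : ι × ι => W p.1 p.2 ≠ 0).card ≤ n
      · exact ih W hWh hWd hle
      obtain ⟨⟨a, b⟩, hab⟩ := Finset.card_pos.1 (Nat.lt_of_le_of_lt (Nat.zero_le _) (not_le.1 hle))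
      have hab' : W a b ≠ 0 := by simpa using hab
      have hne : a ≠ b := fun e => hab' (e ▸ hWd a)
      have hba : W a b ^ 2 = W b a := congrFun (congrFun hWh b) a
      have hcomm : W = (W + prm a b (W a b)) + prm a b (W a b) := by
        rw [add_assoc, add_self_mat hF, add_zero]
      rw [hcomm]
      refine hadd _ _ (ih _ ?_ (fun c => ?_) ?_) (hE a b hne _)
      · rw [ct_add hF, hWh, ct_prm hF hne]
      · simp only [Matrix.add_apply, prm, Matrix.of_apply, hWd, zero_add]
        rw [if_neg (fun h => hne (h.1.symm.trans h.2)), if_neg (fun h => hne (h.2.symm.trans h.1))]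
      · refine Nat.le_of_lt_succ (lt_of_lt_of_le (Finset.card_lt_card
          ((Finset.ssubset_iff_of_subset fun p hp => ?_).2 ⟨(a, b), hab, ?_⟩)) hW)
        · obtain ⟨u, v⟩ := p
          rw [Finset.mem_filter] at hp ⊢
          refine ⟨Finset.mem_univ _, fun h => hp.2 ?_⟩
          simp only [Matrix.add_apply, prm, Matrix.of_apply]
          by_cases h1 : u = a ∧ v = b
          · simp [h1.1, h1.2, hF.add_self]
          · by_cases h2 : u = b ∧ v = a
            · simp [h2.1, h2.2, hne, hne.symm, hba, hF.add_self]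
            · simp [h1, h2, h]
        · rw [Finset.mem_filter]
          exact fun h => h.2 (by simp [prm, hF.add_self])
  rcases isEmpty_or_nonempty ι with he | ⟨⟨i₀⟩⟩
  · exact he.elim i
  refine hone (fun _ => 1) (fun h => one_ne_zero (congrFun h i₀)) ?_
  have hh := hzero _ ((Matrix.of fun _ _ => (1 : F)) + 1) (by
    rw [ct_add hF, ct_one]
    congr 1
    ext a b; simp [ct_apply]) (fun a => by simp [hF.add_self]) le_rfl
  convert hadd _ _ hh h1 using 1
  rw [add_assoc, add_self_mat hF, add_zero]
  ext a b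
  simp

end Cfsg.Agent.CSixNineTwo
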